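import Cfsg.Prelude.Def_OddOrderLocal

/-!
# Pure group theory pieces for S1372 (B&G Theorem 14.2(b),(c)), part B
-/

set_option autoImplicit false
open Cfsg Subgroup

namespace Cfsg.Agent.Helper62

universe u

variable {G : Type u} [Group G] [Finite G]

/-- the order of `M` when `U` is a complement of `B` in `M`. -/
theorem bg72_card_compl {B U M : Subgroup G} (hc : Cfsg.IsComplIn U B M) :
    Nat.card M = Nat.card U * Nat.card B := by
  obtain ⟨hUM, hBM, hinf, hprod⟩ := hc
  have : Nat.card (U × B) = Nat.card M := by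
    refine Nat.card_congr (Equiv.ofBijective (fun ab : U × B =>
      (⟨(ab.1 : G) * ab.2, M.mul_mem (hUM ab.1.2) (hBM ab.2.2)⟩ : M)) ⟨?_, ?_⟩)
    · rintro ⟨a, b⟩ ⟨a', b'⟩ h
      have h' : (a : G) * b = a' * b' := congrArg Subtype.val h
      have h1 : (a' : G)⁻¹ * a = b' * (b : G)⁻¹ := by
        calc (a' : G)⁻¹ * a = (a' : G)⁻¹ * ((a : G) * b) * (b : G)⁻¹ := by group
          _ = (a' : G)⁻¹ * ((a' : G) * b') * (b : G)⁻¹ := by rw [h']
          _ = b' * (b : G)⁻¹ := by group
      have h2 : (a' : G)⁻¹ * a ∈ U ⊓ B :=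
        ⟨U.mul_mem (U.inv_mem a'.2) a.2, h1 ▸ B.mul_mem b'.2 (B.inv_mem b.2)⟩
      rw [hinf, Subgroup.mem_bot] at h2
      have h3 : (a : G) = a' := (inv_mul_eq_one.mp h2).symm
      have h4 : (b : G) = b' := by
        rw [h3] at h'; exact mul_left_cancel h'
      exact Prod.ext (Subtype.ext h3) (Subtype.ext h4)
    · rintro ⟨m, hm⟩
      obtain ⟨a, ha, b, hb, rfl⟩ := hprod m hm
      exact ⟨(⟨a, ha⟩, ⟨b, hb⟩), rfl⟩
  rw [← this, Nat.card_prod]

/-- P1: the order of a complement `U` of `B` in `M` divides the index in `M` of any `A ≤ B`. -/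
theorem bg72_card_dvd_relIndex {A B U M : Subgroup G} (hAB : A ≤ B) (hc : Cfsg.IsComplIn U B M) :
    Nat.card U ∣ A.relIndex M := by
  have hcard := bg72_card_compl hc
  have hBM : B ≤ M := hc.2.1
  have h1 : Nat.card B * B.relIndex M = Nat.card M := by
    have := Subgroup.relIndex_mul_relIndex (⊥ : Subgroup G) B M bot_le hBM
    rwa [Subgroup.relIndex_bot_left, Subgroup.relIndex_bot_left] at this
  have h2 : B.relIndex M = Nat.card U := by
    have hpos : 0 < Nat.card B := Nat.card_pos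
    have : Nat.card B * B.relIndex M = Nat.card B * Nat.card U := by
      rw [h1, hcard, mul_comm]
    exact Nat.eq_of_mul_eq_mul_left hpos this
  rw [← h2]
  exact Subgroup.relIndex_dvd_of_le_left M hAB

end Cfsg.Agent.Helper62
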