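/-
CALL BG15 (helper25), piece T2: if all fixed points of `k` on `L` lie in the normal
subgroup `Y`, then `LY/Y` is nilpotent.
-/
import Cfsg.Agent.Helper35.Coprime
import Cfsg.Agent.Helper25.BG15T1

set_option autoImplicit false

namespace Cfsg.Agent.Helper62

open Cfsg Subgroup

universe u

variable {Γ : Type u} [Group Γ] [Finite Γ]

/-- T2. Section form: if all fixed points of `k` on `L` lie in the normal subgroup `Y`, then
`LY/Y` is nilpotent. -/
theorem bg15_section_nilpotent (L Y : Subgroup Γ) [L.Normal] [Y.Normal] {p : ℕ} (hp : p.Prime)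
    {k : Γ} (hkp : k ^ p = 1) (hpL : ¬ p ∣ Nat.card L)
    (hfixY : ∀ a ∈ L, k * a = a * k → a ∈ Y) :
    Group.IsNilpotent ↥(L.map (QuotientGroup.mk' Y)) := by
  haveI hHn : (L.map (QuotientGroup.mk' Y)).Normal :=
    Subgroup.Normal.map inferInstance _ (QuotientGroup.mk'_surjective Y)
  refine Cfsg.Agent.Helper25.bg15_fpf_nilpotent (L.map (QuotientGroup.mk' Y)) hp
    (k := QuotientGroup.mk' Y k) (by rw [normalizer_eq_top]; exact mem_top _)
    (by rw [← map_pow, hkp, map_one]) ?_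
  rintro _ ⟨a, haL, rfl⟩ hcomm
  -- the normal subgroup `Y ⊓ L`
  haveI hNn : (Y ⊓ L).Normal := Subgroup.normal_inf_normal Y L
  have hAN : zpowers k ≤ normalizer ((Y ⊓ L : Subgroup Γ) : Set Γ) := by
    rw [normalizer_eq_top]; exact le_top
  have hkord : orderOf k ∣ p := orderOf_dvd_of_pow_eq_one hkp
  have hcop : (Nat.card (zpowers k)).Coprime (Nat.card ↥(Y ⊓ L)) := by
    rw [Nat.card_zpowers]
    refine Nat.Coprime.coprime_dvd_left hkord ((Nat.Prime.coprime_iff_not_dvd hp).mpr ?_)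
    exact fun h => hpL (h.trans (Subgroup.card_dvd_of_le inf_le_right))
  have hsolv : Group.IsSolvable ↥(zpowers k) ∨ Group.IsSolvable ↥(Y ⊓ L : Subgroup Γ) := by
    left
    refine Group.isSolvable_of_comm (fun x y => ?_)
    obtain ⟨x, hx⟩ := x
    obtain ⟨y, hy⟩ := y
    obtain ⟨m, rfl⟩ := mem_zpowers_iff.mp hx
    obtain ⟨n, rfl⟩ := mem_zpowers_iff.mp hy
    apply Subtype.ext
    show k ^ m * k ^ n = k ^ n * k ^ m
    rw [← zpow_add, ← zpow_add, add_comm]
  have hx : ∀ b ∈ zpowers k, a⁻¹ * b * a * b⁻¹ ∈ Y ⊓ L := by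
    intro b hb
    have hbL : a⁻¹ * b * a * b⁻¹ ∈ L := by
      have h1 : b * a * b⁻¹ ∈ L := ‹L.Normal›.conj_mem a haL b
      have h2 : a⁻¹ * b * a * b⁻¹ = a⁻¹ * (b * a * b⁻¹) := by group
      rw [h2]
      exact L.mul_mem (L.inv_mem haL) h1
    refine ⟨?_, hbL⟩
    show a⁻¹ * b * a * b⁻¹ ∈ Y
    rw [← QuotientGroup.eq_one_iff, ← QuotientGroup.mk'_apply]
    have hbk : QuotientGroup.mk' Y b ∈ zpowers (QuotientGroup.mk' Y k) := by
      obtain ⟨n, rfl⟩ := mem_zpowers_iff.mp hb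
      rw [map_zpow]
      exact zpow_mem (mem_zpowers _) n
    have hcb : QuotientGroup.mk' Y b * QuotientGroup.mk' Y a =
        QuotientGroup.mk' Y a * QuotientGroup.mk' Y b := by
      obtain ⟨n, hn⟩ := mem_zpowers_iff.mp hbk
      rw [← hn]
      have : Commute (QuotientGroup.mk' Y k) (QuotientGroup.mk' Y a) := hcomm
      exact (this.zpow_left n).eq
    rw [map_mul, map_mul, map_mul, map_inv, map_inv, mul_assoc ((QuotientGroup.mk' Y a)⁻¹), hcb]
    group
  obtain ⟨c, hc, hac⟩ := Cfsg.Agent.Helper35.exists_fixed_in_coset hAN hcop hsolv a hx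
  have hck : k * c = c * k := by
    have := mem_centralizer_iff.mp hc k (mem_zpowers k)
    exact this
  have hcL : c ∈ L := by
    have h2 : c = a * (a⁻¹ * c) := by group
    rw [h2]
    exact L.mul_mem haL hac.2
  have hcY : c ∈ Y := hfixY c hcL hck
  have haY : a ∈ Y := by
    have h2 : a = c * (a⁻¹ * c)⁻¹ := by group
    rw [h2]
    exact Y.mul_mem hcY (Y.inv_mem hac.1)
  rw [QuotientGroup.mk'_apply]
  exact (QuotientGroup.eq_one_iff a).mpr haY

end Cfsg.Agent.Helper62
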