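/-
CALL BG15 (helper25), piece ZP: `O_{q'}(L) = 1` implies `z ∈ O_q(L)`.
-/
import Cfsg.Agent.Helper35.Coprime
import Cfsg.Agent.Helper35.CoprimeSylow
import Cfsg.Agent.Helper55.BGFpf
import Cfsg.Agent.Helper22.Fitting
import Cfsg.Agent.Helper24.HallHigman
import Cfsg.Agent.Helper32.HallHigman

set_option autoImplicit false

namespace Cfsg.Agent.Helper62

open Cfsg Subgroup

universe u

variable {Γ : Type u} [Group Γ] [Finite Γ]

/-- ZP (the heart of stage 1). If `O_{q'}(L) = 1` then `z ∈ O_q(L)`. -/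
theorem bg15_z_mem_pCore (hodd : Odd (Nat.card Γ)) (L : Subgroup Γ) [L.Normal]
    (hsol : Group.IsSolvable ↥L) {p q : ℕ} (hp : p.Prime) (hq : q.Prime) {k z : Γ}
    (hkp : k ^ p = 1) (hpL : ¬ p ∣ Nat.card L) (hzL : z ∈ L) (hzq : orderOf z = q)
    (hzk : k * z = z * k) (hfix : ∀ a ∈ L, k * a = a * k → a ∈ zpowers z)
    (hcore : Cfsg.pPrimeCore q ↥L = ⊥) :
    z ∈ (Cfsg.pCore q ↥L).map L.subtype := by
  haveI : Fact q.Prime := ⟨hq⟩
  haveI : Fact p.Prime := ⟨hp⟩
  -- `C_L(O_q(L)) ≤ O_q(L)`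
  have hcent : centralizer ((Cfsg.pCore q ↥L : Subgroup ↥L) : Set ↥L) ≤ Cfsg.pCore q ↥L := by
    refine Cfsg.Agent.Helper24.centralizer_pCore_le q ?_
    intro D hD hDq
    have : D ≤ Cfsg.pPrimeCore q ↥L := le_sSup ⟨hD, hDq⟩
    rw [hcore] at this
    exact le_bot_iff.mp this
  haveI hchar : (Cfsg.pCore q ↥L).Characteristic := Cfsg.Agent.Helper22.pCore_characteristic q ↥L
  have hPn : ((Cfsg.pCore q ↥L).map L.subtype).Normal :=
    ConjAct.normal_of_characteristic_of_normal
  have hP0q : IsPGroup q (Cfsg.pCore q ↥L) := Cfsg.Agent.Helper32.pCore_isPGroup' q ↥L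
  have hPq : IsPGroup q ((Cfsg.pCore q ↥L).map L.subtype) := hP0q.map _
  have hPL : (Cfsg.pCore q ↥L).map L.subtype ≤ L := Subgroup.map_subtype_le _
  have hPnil : Group.IsNilpotent ↥((Cfsg.pCore q ↥L).map L.subtype) := hPq.isNilpotent
  by_contra hzP
  -- `k` is fixed-point-free on `P`
  have hzcard : Nat.card (zpowers z) = q := by rw [Nat.card_zpowers, hzq]
  have hfixP : ∀ a ∈ (Cfsg.pCore q ↥L).map L.subtype, k * a = a * k → a = 1 := by
    intro a haP hak
    by_contra ha1
    have haz : a ∈ zpowers z := hfix a (hPL haP) hak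
    have hle : zpowers a ≤ zpowers z := (zpowers_le).mpr haz
    have hdvd : Nat.card (zpowers a) ∣ q := by
      rw [← hzcard]; exact Subgroup.card_dvd_of_le hle
    have hne1 : Nat.card (zpowers a) ≠ 1 := by
      rw [Nat.card_zpowers]
      intro h
      exact ha1 (orderOf_eq_one_iff.mp h)
    have hcq : Nat.card (zpowers a) = q := by
      rcases (Nat.dvd_prime hq).mp hdvd with h | h
      · exact absurd h hne1
      · exact h
    have heq : zpowers a = zpowers z :=
      Subgroup.eq_of_le_of_card_ge hle (by rw [hcq, hzcard])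
    have : z ∈ zpowers a := by rw [heq]; exact mem_zpowers z
    exact hzP ((zpowers_le).mpr haP this)
  -- the normalizer facts
  have hkL : zpowers k ≤ normalizer (L : Set Γ) := by
    rw [normalizer_eq_top]; exact le_top
  have hkord : orderOf k ∣ p := orderOf_dvd_of_pow_eq_one hkp
  have hcopA : (Nat.card (zpowers k)).Coprime (Nat.card L) := by
    rw [Nat.card_zpowers]
    exact Nat.Coprime.coprime_dvd_left hkord ((Nat.Prime.coprime_iff_not_dvd hp).mpr hpL)
  have hLpos : Nat.card L ≠ 0 := Nat.card_pos.ne'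
  -- every prime divisor of `|L|` is `q`
  have hLq : IsPGroup q ↥L := by
    have hall : ∀ r : ℕ, r.Prime → r ∣ Nat.card L → r = q := by
      intro r hr hrL
      by_contra hrq
      haveI : Fact r.Prime := ⟨hr⟩
      obtain ⟨R, ⟨hRL, hRcard⟩, hAR⟩ :=
        Cfsg.Agent.Helper35.exists_invariant_sylow hkL hcopA (Or.inr hsol) r
      have hkR : k ∈ normalizer (R : Set Γ) := hAR (mem_zpowers k)
      have hPR : (Nat.card ↥((Cfsg.pCore q ↥L).map L.subtype)).Coprime (Nat.card R) := by
        obtain ⟨n, hn⟩ := (IsPGroup.iff_card).mp hPq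
        rw [hn, hRcard]
        exact Nat.Coprime.pow _ _ ((Nat.coprime_primes hq hr).mpr (fun h => hrq h.symm))
      have hpP : ¬ p ∣ Nat.card ↥((Cfsg.pCore q ↥L).map L.subtype) := fun h =>
        hpL (h.trans (Subgroup.card_dvd_of_le hPL))
      have hpR : ¬ p ∣ Nat.card R := fun h => hpL (h.trans (Subgroup.card_dvd_of_le hRL))
      have hkey := Cfsg.Agent.Helper55.bg_fpf_comm_centralizes hodd hp
        ((Cfsg.pCore q ↥L).map L.subtype) R k hPnil
        (by rw [normalizer_eq_top]; exact le_top)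
        (by rw [normalizer_eq_top]; exact mem_top k) hkR hkp hpP hpR hPR hfixP
      have hRz : R ≤ zpowers z := by
        intro y hy
        have hkyk : k * y * k⁻¹ ∈ R := (mem_normalizer_iff.mp hkR y).mp hy
        have hcR : k * y * k⁻¹ * y⁻¹ ∈ R := R.mul_mem hkyk (R.inv_mem hy)
        have hcL : k * y * k⁻¹ * y⁻¹ ∈ L := hRL hcR
        have hcC : (⟨k * y * k⁻¹ * y⁻¹, hcL⟩ : ↥L) ∈
            centralizer ((Cfsg.pCore q ↥L : Subgroup ↥L) : Set ↥L) := by
          rw [mem_centralizer_iff]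
          intro a ha
          apply Subtype.ext
          have := hkey y hy (a : Γ) (Subgroup.mem_map_of_mem L.subtype ha)
          simpa using this.symm
        have hcP0 := hcent hcC
        have hcP : k * y * k⁻¹ * y⁻¹ ∈ (Cfsg.pCore q ↥L).map L.subtype :=
          ⟨⟨k * y * k⁻¹ * y⁻¹, hcL⟩, hcP0, rfl⟩
        have hc1 : k * y * k⁻¹ * y⁻¹ = 1 := by
          have hdisj := (Subgroup.disjoint_of_coprime_natCard hPR).eq_bot
          have : k * y * k⁻¹ * y⁻¹ ∈ (Cfsg.pCore q ↥L).map L.subtype ⊓ R := ⟨hcP, hcR⟩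
          rw [hdisj] at this
          exact mem_bot.mp this
        have hky : k * y = y * k := by
          have h1 : k * y * k⁻¹ = y := by
            have := congrArg (· * y) hc1
            simpa using this
          calc k * y = k * y * k⁻¹ * k := by group
            _ = y * k := by rw [h1]
        exact hfix y (hRL hy) hky
      have hRdvd : Nat.card R ∣ q := by
        rw [← hzcard]; exact Subgroup.card_dvd_of_le hRz
      rw [hRcard] at hRdvd
      have hfac : (Nat.card L).factorization r ≠ 0 := by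
        have := (hr.factorization_pos_of_dvd hLpos hrL)
        omega
      have hrq' : r ∣ q := (dvd_pow_self r hfac).trans hRdvd
      exact hrq ((Nat.prime_dvd_prime_iff_eq hr hq).mp hrq')
    rw [IsPGroup.iff_card]
    exact ⟨_, Nat.eq_prime_pow_of_unique_prime_dvd hLpos (fun {r} hr hrL => hall r hr hrL)⟩
  have htop : (⊤ : Subgroup ↥L) ≤ Cfsg.pCore q ↥L := by
    refine le_sSup ⟨inferInstance, ?_⟩
    exact hLq.to_subgroup ⊤
  exact hzP ⟨⟨z, hzL⟩, htop (mem_top _), rfl⟩

end Cfsg.Agent.Helper62
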