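/-
helper62: definitions for the reduction part of Bender–Glauberman Theorem 3.6 (statement S1444).
`Main p G` is the statement of BG 3.6 for the group `G` in element form (no `G = H R` needed);
`PCl p L` says the subgroup `L` is `p`-closed; `opp p L` is `O_{p'}(L)` inside the ambient group.
-/
import Mathlib
import Cfsg.Prelude.Def_Local

set_option autoImplicit false

namespace Cfsg.Agent.Helper62.BG36

open Subgroup

universe u

/-- Bender–Glauberman 3.6 for the group `G`, in element form: `H` normal, `R` of coprime order,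
`x ∈ R` of prime order with `C_H(x)` a Z-group; then `[H, R]` has `p`-length at most one. -/
def Main (p : ℕ) (G : Type u) [Group G] : Prop :=
  ∀ (H R : Subgroup G) (x : G), H.Normal → (Nat.card H).Coprime (Nat.card R) → x ∈ R →
    (orderOf x).Prime → IsZGroup ↥(H ⊓ centralizer ({x} : Set G)) →
    Cfsg.PLengthLE p 1 ↥(⁅H, R⁆ : Subgroup G)

/-- `L` is `p`-closed: the `p`-elements of `L` lie in a `p`-subgroup `T` of `L` (so they form a
subgroup, the unique Sylow `p`-subgroup of `L`). -/
def PCl {G : Type u} [Group G] (p : ℕ) (L : Subgroup G) : Prop :=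
  ∃ T : Subgroup G, T ≤ L ∧ IsPGroup p T ∧ ∀ g ∈ L, (∃ k : ℕ, g ^ p ^ k = 1) → g ∈ T

/-- `O_{p'}(L)` as a subgroup of the ambient group. -/
def opp {G : Type u} [Group G] (p : ℕ) (L : Subgroup G) : Subgroup G :=
  (Cfsg.pPrimeCore p ↥L).map L.subtype

end Cfsg.Agent.Helper62.BG36
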