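/-
helper62: Bender–Glauberman Theorem 3.6 (S1444), reduction part 1: the minimal counterexample
`MC p H R x` and the steps R0–R2 + CLAIM A of the blueprint: `H = [H,R]`, `O_{p'}(H) = 1`,
`V = O_p(H) = F(H)` is elementary abelian and self-centralising in `H`, and for every proper
`R'`-invariant `X ≥ V` the commutator `[X,R']` is `p`-closed.
-/
import Mathlib
import Cfsg.Agent.Helper62.BG36Def
import Cfsg.Agent.Helper72.BG36D2
import Cfsg.Agent.Helper72.BG36D4
import Cfsg.Agent.Helper62.FitAct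
import Cfsg.Agent.Helper35.Coprime
import Cfsg.Agent.Helper35.CoprimeAbelian
import Cfsg.Agent.Helper35.CoprimeGen
import Cfsg.Agent.Helper1.BGUniqE
import Cfsg.Agent.Helper24.PLen

set_option autoImplicit false
set_option linter.style.haveILetI false
set_option linter.unusedSectionVars false

namespace Cfsg.Agent.Helper62.BG36

open Subgroup Cfsg.Agent.Helper72
open scoped commutatorElement

universe u

variable {G : Type u} [Group G]

/-! ### utilities -/

theorem ut_comm_of_normalize {A B : Subgroup G} (hAB : A ≤ normalizer (B : Set G))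
    (hBA : B ≤ normalizer (A : Set G)) (h : A ⊓ B = ⊥) : A ≤ centralizer (B : Set G) := by
  intro a ha
  exact Cfsg.Agent.Helper35.mem_centralizer_of_mem_normalizer hBA (by rw [inf_comm]; exact h) ha
    (hAB ha)

theorem ut_pelt_eq_one [Finite G] {p : ℕ} {B : Subgroup G} {g : G} (hg : g ∈ B)
    (hB : (Nat.card B).Coprime p) (hgp : ∃ k : ℕ, g ^ p ^ k = 1) : g = 1 := by
  obtain ⟨k, hk⟩ := hgp
  have h1 : orderOf g ∣ p ^ k := orderOf_dvd_of_pow_eq_one hk
  have h2 : orderOf g ∣ Nat.card B := Subgroup.orderOf_dvd_natCard B hg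
  have h3 : (Nat.card B).Coprime (p ^ k) := Nat.Coprime.pow_right k hB
  have h4 := Nat.dvd_gcd h2 h1
  rw [Nat.Coprime.gcd_eq_one h3, Nat.dvd_one] at h4
  exact orderOf_eq_one_iff.mp h4

theorem ut_isPGroup_pelt {p : ℕ} {T : Subgroup G} (hT : IsPGroup p T) {g : G} (hg : g ∈ T) :
    ∃ k : ℕ, g ^ p ^ k = 1 := by
  obtain ⟨k, hk⟩ := hT ⟨g, hg⟩
  exact ⟨k, by simpa using congrArg Subtype.val hk⟩

theorem ut_inf_eq_bot [Finite G] {p : ℕ} {A B : Subgroup G} (hA : IsPGroup p A)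
    (hB : (Nat.card B).Coprime p) : A ⊓ B = ⊥ := by
  rw [eq_bot_iff]
  intro g hg
  rw [mem_bot]
  exact ut_pelt_eq_one hg.2 hB (ut_isPGroup_pelt hA hg.1)

theorem ut_le_normalizer_comm_left (X R' : Subgroup G) :
    X ≤ normalizer ((⁅X, R'⁆ : Subgroup G) : Set G) := by
  apply Cfsg.Agent.Helper35.le_normalizer_of_forall_conj_mem
  intro a ha c hc
  have h1 : ⁅X, R'⁆ ≤ (⁅X, R'⁆ : Subgroup G).comap (MulAut.conj a).toMonoidHom := by
    rw [Subgroup.commutator_le]
    intro b hb y hy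
    rw [Subgroup.mem_comap]
    have e : (MulAut.conj a).toMonoidHom ⁅b, y⁆ = ⁅a * b, y⁆ * ⁅a, y⁆⁻¹ := by
      simp only [MulEquiv.coe_toMonoidHom, MulAut.conj_apply, commutatorElement_def]
      group
    rw [e]
    exact mul_mem (Subgroup.commutator_mem_commutator (mul_mem ha hb) hy)
      (inv_mem (Subgroup.commutator_mem_commutator ha hy))
  have h2 := h1 hc
  rw [Subgroup.mem_comap] at h2
  simpa using h2

theorem ut_pcl_normalizer {p : ℕ} {L T : Subgroup G} (hTL : T ≤ L) (hTp : IsPGroup p T)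
    (hT : ∀ g ∈ L, (∃ k : ℕ, g ^ p ^ k = 1) → g ∈ T) :
    normalizer (L : Set G) ≤ normalizer (T : Set G) := by
  apply Cfsg.Agent.Helper35.le_normalizer_of_forall_conj_mem
  intro a ha t ht
  refine hT _ ((mem_normalizer_iff.mp ha t).mp (hTL ht)) ?_
  obtain ⟨k, hk⟩ := ut_isPGroup_pelt hTp ht
  exact ⟨k, by rw [conj_pow, hk]; group⟩

theorem ut_mem_of_pelt [Finite G] {p : ℕ} {M T : Subgroup G}
    (hn : M ≤ normalizer (T : Set G)) (hidx : (T.relIndex M).Coprime p) {g : G} (hg : g ∈ M)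
    (hgp : ∃ k : ℕ, g ^ p ^ k = 1) : g ∈ T := by
  haveI : (T.subgroupOf M).Normal := Subgroup.normal_subgroupOf_of_le_normalizer hn
  obtain ⟨k, hk⟩ := hgp
  obtain ⟨q, hq⟩ : ∃ q : ↥M ⧸ T.subgroupOf M, q = QuotientGroup.mk' _ ⟨g, hg⟩ := ⟨_, rfl⟩
  have h1 : q ^ p ^ k = 1 := by
    rw [hq, ← map_pow]
    have : (⟨g, hg⟩ : ↥M) ^ p ^ k = 1 := Subtype.ext (by simpa using hk)
    rw [this, map_one]
  have h2 : orderOf q ∣ p ^ k := orderOf_dvd_of_pow_eq_one h1
  have h3 : orderOf q ∣ T.relIndex M := by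
    have := orderOf_dvd_natCard q
    rwa [← Subgroup.index_eq_card] at this
  have h4 := Nat.dvd_gcd h3 h2
  rw [Nat.Coprime.gcd_eq_one (Nat.Coprime.pow_right k hidx), Nat.dvd_one] at h4
  have h5 : q = 1 := orderOf_eq_one_iff.mp h4
  rw [hq] at h5
  have h6 : (⟨g, hg⟩ : ↥M) ∈ T.subgroupOf M := (QuotientGroup.eq_one_iff _).mp h5
  exact Subgroup.mem_subgroupOf.mp h6

theorem ut_relIndex_sup [Finite G] {p : ℕ} {V K : Subgroup G} [V.Normal]
    (hK : (Nat.card K).Coprime p) : (V.relIndex (V ⊔ K)).Coprime p := by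
  rw [Subgroup.relIndex_sup_left]
  exact Nat.Coprime.coprime_dvd_left (Subgroup.relIndex_dvd_card V K) hK

theorem ut_isCyclic_of_zgroup [Finite G] {p : ℕ} [Fact p.Prime] {Z W : Subgroup G}
    (hZ : IsZGroup ↥Z) (hWZ : W ≤ Z) (hW : IsPGroup p W) : IsCyclic ↥W := by
  haveI : IsZGroup ↥W :=
    IsZGroup.of_injective (f := Subgroup.inclusion hWZ) (Subgroup.inclusion_injective hWZ)
  haveI : Group.IsNilpotent ↥W := hW.isNilpotent
  infer_instance

/-! ### the minimal counterexample -/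

/-- A minimal counterexample to BG 3.6: the hypotheses, the induction hypothesis in the forms
(Sub) and (Quot), and the failure of the conclusion. -/
structure MC (p : ℕ) (H R : Subgroup G) (x : G) : Prop where
  hn : H.Normal
  cop : (Nat.card H).Coprime (Nat.card R)
  xR : x ∈ R
  xprime : (orderOf x).Prime
  zg : IsZGroup ↥(H ⊓ centralizer ({x} : Set G))
  sub : ∀ X R' : Subgroup G, X ≤ H → R' ≤ R → x ∈ R' → R' ≤ normalizer (X : Set G) →
      (X ≠ H ∨ R' ≠ R) → Cfsg.PLengthLE p 1 ↥(⁅X, R'⁆ : Subgroup G)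
  quot : ∀ (N : Subgroup G) [N.Normal], N ≤ H → N ≠ ⊥ →
      Cfsg.PLengthLE p 1 ↥((⁅H, R⁆ : Subgroup G).map (QuotientGroup.mk' N))
  npl : ¬ Cfsg.PLengthLE p 1 ↥(⁅H, R⁆ : Subgroup G)

variable [Finite G] [Group.IsSolvable G] {p : ℕ} [Fact p.Prime] {H R : Subgroup G} {x : G}

theorem MC.comm_eq (h : MC p H R x) : (⁅H, R⁆ : Subgroup G) = H := by
  haveI := h.hn
  by_contra hne
  have hRH : R ≤ normalizer (H : Set G) := by rw [normalizer_eq_top]; exact le_top
  have hLH : (⁅H, R⁆ : Subgroup G) ≤ H := Cfsg.Agent.Helper35.commutator_le_of_le_normalizer hRH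
  have h1 := h.sub ⁅H, R⁆ R hLH le_rfl h.xR (Cfsg.Agent.Helper35.le_normalizer_commutator hRH)
    (Or.inl hne)
  rw [Cfsg.Agent.Helper35.commutator_commutator_eq_of_coprime hRH h.cop.symm
    (Or.inr inferInstance)] at h1
  exact h.npl h1

theorem MC.npl' (h : MC p H R x) : ¬ Cfsg.PLengthLE p 1 ↥H := by
  have := h.npl
  rwa [h.comm_eq] at this

theorem MC.no_pprime (h : MC p H R x) (N : Subgroup G) [N.Normal] (hNH : N ≤ H)
    (hN : (Nat.card N).Coprime p) : N = ⊥ := by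
  by_contra hne
  have h1 := h.quot N hNH hne
  rw [h.comm_eq] at h1
  exact h.npl' (bg36_pl1_of_map_mk p hNH hN h1)

theorem MC.opp_bot (h : MC p H R x) : opp p H = ⊥ := by
  haveI := h.hn
  have h1 : normalizer (H : Set G) ≤ normalizer (opp p H : Set G) := bg36_opp_normalizer p H
  rw [normalizer_eq_top] at h1
  haveI : (opp p H).Normal := normalizer_eq_top_iff.mp (top_le_iff.mp h1)
  exact h.no_pprime (opp p H) (bg36_opp_le p H) (bg36_opp_coprime p H)

theorem MC.no_pprime' (h : MC p H R x) {A : Subgroup G} (hAH : A ≤ H)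
    (hn : H ≤ normalizer (A : Set G)) (hA : (Nat.card A).Coprime p) : A = ⊥ := by
  have := bg36_le_opp p hAH hn hA
  rwa [h.opp_bot, le_bot_iff] at this

theorem MC.fit_eq (h : MC p H R x) : Cfsg.fittingOf H = FitAct.oq p H := by
  haveI := h.hn
  apply le_antisymm
  · rw [FitAct.fittingOf_eq_iSup]
    apply iSup_le
    intro ℓ
    by_cases hℓ : (ℓ : ℕ) = p
    · rw [hℓ]
    · haveI : Fact (ℓ : ℕ).Prime := ⟨ℓ.2⟩
      haveI := FitAct.oq_normal (ℓ : ℕ) H
      have h1 : (Nat.card (FitAct.oq (ℓ : ℕ) H)).Coprime p := by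
        obtain ⟨n, hn⟩ := (IsPGroup.iff_card).mp (FitAct.oq_isPGroup (ℓ : ℕ) H)
        rw [hn]
        exact Nat.Coprime.pow_left n ((Nat.coprime_primes ℓ.2 (Fact.out)).mpr hℓ)
      rw [h.no_pprime _ (FitAct.oq_le _ H) h1]
      exact bot_le
  · exact FitAct.oq_le_fittingOf Fact.out H

theorem MC.cent_le (h : MC p H R x) :
    H ⊓ centralizer (FitAct.oq p H : Set G) ≤ FitAct.oq p H := by
  have := Cfsg.Agent.Helper1.bgu_centralizer_fittingOf_le (L := H) inferInstance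
  rwa [h.fit_eq] at this

theorem ut_op_le {B : Subgroup G} (hBH : B ≤ H)
    (hn : H ≤ normalizer (B : Set G)) (hB : IsPGroup p B) : B ≤ FitAct.oq p H := by
  haveI : (B.subgroupOf H).Normal := Subgroup.normal_subgroupOf_of_le_normalizer hn
  have h1 : B.subgroupOf H ≤ Cfsg.pCore p ↥H :=
    Cfsg.Agent.Helper24.le_pCore inferInstance hB.comap_subtype
  intro b hb
  exact Subgroup.mem_map.mpr ⟨⟨b, hBH hb⟩, h1 (Subgroup.mem_subgroupOf.mpr hb), rfl⟩

theorem MC.frat_bot (h : MC p H R x) : FitAct.frat (FitAct.oq p H) = ⊥ := by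
  haveI := h.hn
  haveI := FitAct.oq_normal p H
  haveI := FitAct.frat_normal (FitAct.oq p H)
  by_contra hne
  have hNV : FitAct.frat (FitAct.oq p H) ≤ FitAct.oq p H := FitAct.frat_le _
  have h1 := h.quot _ (hNV.trans (FitAct.oq_le p H)) hne
  rw [h.comm_eq] at h1
  have h2 := bg36_opp_frat_quot p H (FitAct.oq p H) (FitAct.frat (FitAct.oq p H))
    (FitAct.oq_le p H) (FitAct.oq_isPGroup p H) h.cent_le le_rfl
  have h3 := bg36_pcl_of_pl1 p h1 h2
  have h4 := bg36_pcl_of_map_mk p (hNV.trans (FitAct.oq_le p H))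
    ((FitAct.oq_isPGroup p H).to_le hNV) h3
  exact h.npl' (bg36_pl1_of_pcl p h4)

theorem MC.V_ab (h : MC p H R x) :
    (∀ a ∈ FitAct.oq p H, ∀ b ∈ FitAct.oq p H, a * b = b * a) ∧
      ∀ a ∈ FitAct.oq p H, a ^ p = 1 :=
  bg36_elemAb_of_frat p _ (FitAct.oq_isPGroup p H) h.frat_bot

/-- CLAIM A. -/
theorem MC.claimA (h : MC p H R x) {X R' : Subgroup G} (hVX : FitAct.oq p H ≤ X) (hXH : X ≤ H)
    (hR' : R' ≤ R) (hxR' : x ∈ R') (hn : R' ≤ normalizer (X : Set G))
    (hX : X ≠ H ∨ R' ≠ R) : PCl p (⁅X, R'⁆ : Subgroup G) := by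
  haveI := h.hn
  haveI := FitAct.oq_normal p H
  have h1 := h.sub X R' hXH hR' hxR' hn hX
  refine bg36_pcl_of_pl1 p h1 ?_
  have hYX : (⁅X, R'⁆ : Subgroup G) ≤ X := Cfsg.Agent.Helper35.commutator_le_of_le_normalizer hn
  have hAY : opp p (⁅X, R'⁆ : Subgroup G) ≤ ⁅X, R'⁆ := bg36_opp_le p _
  have hXA : X ≤ normalizer (opp p (⁅X, R'⁆ : Subgroup G) : Set G) :=
    (ut_le_normalizer_comm_left X R').trans (bg36_opp_normalizer p _)
  have hAV : opp p (⁅X, R'⁆ : Subgroup G) ⊓ FitAct.oq p H = ⊥ := by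
    rw [inf_comm]; exact ut_inf_eq_bot (FitAct.oq_isPGroup p H) (bg36_opp_coprime p _)
  have hcent : opp p (⁅X, R'⁆ : Subgroup G) ≤ centralizer (FitAct.oq p H : Set G) :=
    ut_comm_of_normalize (by rw [normalizer_eq_top]; exact le_top) (hVX.trans hXA) hAV
  have hAV' : opp p (⁅X, R'⁆ : Subgroup G) ≤ FitAct.oq p H :=
    fun a ha => h.cent_le ⟨hXH (hYX (hAY ha)), hcent ha⟩
  rw [eq_bot_iff, ← hAV]
  exact le_inf le_rfl hAV'

end Cfsg.Agent.Helper62.BG36
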