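/-
Helper library of seat helper62: an element of prime order acting on a solvable normal subgroup
`K` of a group of odd order without fixed points on `F(K)` centralises `K / F(K)`
(Bender–Glauberman, section 3), via the Shult-type theorem of `Helper63`.
Namespace `Cfsg.Agent.Helper62.FitAct`.  Add-only once landed.
-/
import Mathlib
import Cfsg.Prelude.Def_OddOrderLocal
import Cfsg.Agent.Helper63.ShultGroup
import Cfsg.Agent.Helper35.CoprimeSylow
import Cfsg.Agent.Helper35.CoprimeAbelian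
import Cfsg.Agent.Helper35.Burnside
import Cfsg.Agent.Helper22.SolvableCore
import Cfsg.Agent.Helper2.PGroup

set_option autoImplicit false

namespace Cfsg.Agent.Helper62
namespace FitAct

open Subgroup
open scoped commutatorElement

universe u

variable {G : Type u} [Group G] [Finite G]

/-- The Frattini subgroup of a subgroup, as a subgroup of the ambient group. -/
def frat (P : Subgroup G) : Subgroup G := (frattini ↥P).map P.subtype

omit [Finite G] in
theorem frat_le (P : Subgroup G) : frat P ≤ P := Subgroup.map_subtype_le _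

omit [Finite G] in
theorem frat_normal (P : Subgroup G) [P.Normal] : (frat P).Normal :=
  Helper22.normal_map_subtype_of_characteristic P (frattini ↥P)

omit [Finite G] in
theorem zpowers_isSolvable (x : G) : Group.IsSolvable (zpowers x) :=
  Group.isSolvable_of_comm (fun a b => (inferInstance : IsMulCommutative (zpowers x)).is_comm.comm a b)

/-- Application of Shult's theorem in odd order: if `x` of prime order `r` has no fixed points on
the normal `ℓ`-subgroup `P` and normalises the `q`-subgroup `Q`, then `[x, Q]` acts trivially on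
`P / Φ(P)`. -/
theorem shult_odd {ℓ q r : ℕ} (hℓ : ℓ.Prime) (hq : q.Prime) (hr : r.Prime) (hℓq : ℓ ≠ q)
    (hℓr : ℓ ≠ r) (hqr : q ≠ r) (hodd : Odd (Nat.card G)) (P : Subgroup G) [P.Normal]
    (hP : IsPGroup ℓ P) (Q : Subgroup G) (hQ : IsPGroup q Q) (x : G) (hxr : x ^ r = 1)
    (hxQ : ∀ g ∈ Q, x * g * x⁻¹ ∈ Q) (hfix : ∀ a ∈ P, x * a = a * x → a = 1)
    (g : G) (hg : g ∈ Q) (y : G) (hy : y ∈ P) :
    (x * g * x⁻¹ * g⁻¹) * y * (x * g * x⁻¹ * g⁻¹)⁻¹ * y⁻¹ ∈ frat P := by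
  by_contra hcon
  haveI : Fact ℓ.Prime := ⟨hℓ⟩
  haveI := frat_normal P
  obtain ⟨π, hπdef⟩ : ∃ π : G →* G ⧸ frat P, π = QuotientGroup.mk' (frat P) := ⟨_, rfl⟩
  have hπ : Function.Surjective π := by rw [hπdef]; exact QuotientGroup.mk'_surjective _
  have hker : ∀ z : G, π z = 1 ↔ z ∈ frat P := fun z => by
    rw [hπdef]; exact QuotientGroup.eq_one_iff z
  have hV : Cfsg.IsElementaryAbelian ℓ (P.map π) := by
    refine ⟨⟨⟨?_⟩⟩, ?_⟩
    · rintro ⟨_, a, ha, rfl⟩ ⟨_, b, hb, rfl⟩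
      apply Subtype.ext
      show π a * π b = π b * π a
      have h1 : a * b * a⁻¹ * b⁻¹ ∈ frat P := by
        have h2 : ⁅(⟨a, ha⟩ : P), ⟨b, hb⟩⁆ ∈ frattini ↥P :=
          Helper2.commutator_le_frattini_of_isPGroup hP
            (Subgroup.commutator_mem_commutator (mem_top _) (mem_top _))
        exact ⟨_, h2, rfl⟩
      have h3 : π (a * b * a⁻¹ * b⁻¹) = 1 := (hker _).mpr h1
      simp only [map_mul, map_inv] at h3
      calc π a * π b = (π a * π b * (π a)⁻¹ * (π b)⁻¹) * (π b * π a) := by group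
        _ = π b * π a := by rw [h3, one_mul]
    · rintro _ ⟨a, ha, rfl⟩
      have h1 : a ^ ℓ ∈ frat P :=
        ⟨(⟨a, ha⟩ : P) ^ ℓ, Helper2.pow_mem_frattini_of_isPGroup hP _, rfl⟩
      rw [← map_pow]; exact (hker _).mpr h1
  have hVn : (P.map π).Normal := Subgroup.Normal.map inferInstance π hπ
  have hNV : normalizer ((P.map π : Subgroup (G ⧸ frat P)) : Set (G ⧸ frat P)) = ⊤ :=
    normalizer_eq_top_iff.mpr hVn
  have hxQ' : ∀ g' ∈ Q.map π, π x * g' * (π x)⁻¹ ∈ Q.map π := by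
    rintro _ ⟨g', hg', rfl⟩
    exact ⟨x * g' * x⁻¹, hxQ g' hg', by simp⟩
  have hfixV : ∀ a ∈ P.map π, π x * a = a * π x → a = 1 := by
    rintro _ ⟨a, ha, rfl⟩ hcomm
    rw [hker]
    have hAN : zpowers x ≤ normalizer ((frat P : Subgroup G) : Set G) := by
      rw [normalizer_eq_top_iff.mpr (frat_normal P)]; exact le_top
    have hcop : (Nat.card (zpowers x)).Coprime (Nat.card (frat P)) := by
      obtain ⟨n, hn⟩ := IsPGroup.iff_card.mp hP
      have h1 : Nat.card (frat P) ∣ ℓ ^ n := hn ▸ Subgroup.card_dvd_of_le (frat_le P)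
      have h2 : Nat.card (zpowers x) ∣ r := by
        rw [Nat.card_zpowers]; exact orderOf_dvd_of_pow_eq_one hxr
      have h3 : Nat.Coprime r (ℓ ^ n) :=
        Nat.Coprime.pow_right n ((Nat.coprime_primes hr hℓ).mpr (Ne.symm hℓr))
      exact Nat.Coprime.coprime_dvd_left h2 (Nat.Coprime.coprime_dvd_right h1 h3)
    have hx' : ∀ a' ∈ zpowers x, a⁻¹ * a' * a * a'⁻¹ ∈ frat P := by
      intro a' ha'
      obtain ⟨k, rfl⟩ := mem_zpowers_iff.mp ha'
      rw [← hker]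
      have h1 : Commute (π x ^ k) (π a) := Commute.zpow_left hcomm k
      simp only [map_mul, map_inv, map_zpow]
      rw [mul_assoc (π a)⁻¹, h1.eq]; group
    obtain ⟨c, hc, hac⟩ := Helper35.exists_fixed_in_coset hAN hcop
      (Or.inl (zpowers_isSolvable x)) a hx'
    have hcP : c ∈ P := by
      have : c = a * (a⁻¹ * c) := by group
      rw [this]; exact mul_mem ha (frat_le P hac)
    have hcx : x * c = c * x := (mem_centralizer_iff.mp hc) x (mem_zpowers x)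
    have hc1 : c = 1 := hfix c hcP hcx
    rw [hc1, mul_one] at hac
    exact inv_mem_iff.mp hac
  have hne : ∃ g' ∈ Q.map π, π x * g' * (π x)⁻¹ * g'⁻¹ ∉
      centralizer ((P.map π : Subgroup (G ⧸ frat P)) : Set (G ⧸ frat P)) := by
    refine ⟨π g, ⟨g, hg, rfl⟩, fun hmem => hcon ?_⟩
    have h1 := (mem_centralizer_iff.mp hmem) (π y) ⟨y, hy, rfl⟩
    rw [← hker]
    simp only [map_mul, map_inv]
    rw [← h1]; group
  obtain ⟨hq2, -, -⟩ := Helper63.Shult.shult_group hℓ hq hr hℓq hℓr hqr (Q.map π) (P.map π)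
    (hQ.map π) hV (by rw [hNV]; exact le_top) (π x) (by rw [hNV]; exact mem_top _)
    (by rw [← map_pow, hxr, map_one]) hxQ' hfixV hne
  -- `q = 2` contradicts odd order
  have hcQ : x * g * x⁻¹ * g⁻¹ ∈ Q := mul_mem (hxQ g hg) (inv_mem hg)
  obtain ⟨k, hk⟩ := hQ ⟨_, hcQ⟩
  have hk' : (x * g * x⁻¹ * g⁻¹) ^ (q ^ k) = 1 := congrArg Subtype.val hk
  have h1 : orderOf (x * g * x⁻¹ * g⁻¹) ∣ q ^ k := orderOf_dvd_of_pow_eq_one hk'
  have h2 : orderOf (x * g * x⁻¹ * g⁻¹) ∣ Nat.card G := orderOf_dvd_natCard _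
  have h3 : Nat.Coprime (q ^ k) (Nat.card G) := by
    rw [hq2]; exact Nat.Coprime.pow_left k (Nat.coprime_two_left.mpr hodd)
  have h4 : orderOf (x * g * x⁻¹ * g⁻¹) = 1 := Nat.eq_one_of_dvd_coprimes h3 h1 h2
  have h5 : x * g * x⁻¹ * g⁻¹ = 1 := orderOf_eq_one_iff.mp h4
  apply hcon
  rw [h5]; simp

/-! ### `O_ℓ(K)` and `F(K)` inside the ambient group -/

/-- `O_ℓ(K)` as a subgroup of the ambient group. -/
def oq (ℓ : ℕ) (K : Subgroup G) : Subgroup G := (Cfsg.pCore ℓ ↥K).map K.subtype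

omit [Finite G] in
theorem oq_normal (ℓ : ℕ) (K : Subgroup G) [K.Normal] : (oq ℓ K).Normal := by
  haveI := Helper22.pCore_characteristic ℓ ↥K
  exact Helper22.normal_map_subtype_of_characteristic K (Cfsg.pCore ℓ ↥K)

omit [Finite G] in
theorem oq_isPGroup (ℓ : ℕ) (K : Subgroup G) : IsPGroup ℓ (oq ℓ K) :=
  (Helper22.pCore_isPGroup ℓ ↥K).map _

omit [Finite G] in
theorem oq_le (ℓ : ℕ) (K : Subgroup G) : oq ℓ K ≤ K := Subgroup.map_subtype_le _

theorem fittingOf_eq_iSup (K : Subgroup G) :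
    Cfsg.fittingOf K = ⨆ ℓ : Nat.Primes, oq (ℓ : ℕ) K := by
  unfold Cfsg.fittingOf oq
  rw [Helper22.fittingSubgroup_eq_iSup_pCore, Subgroup.map_iSup]

theorem oq_le_fittingOf {ℓ : ℕ} (hℓ : ℓ.Prime) (K : Subgroup G) : oq ℓ K ≤ Cfsg.fittingOf K := by
  rw [fittingOf_eq_iSup]
  exact le_iSup (fun ℓ : Nat.Primes => oq (ℓ : ℕ) K) ⟨ℓ, hℓ⟩

omit [Finite G] in
theorem fittingOf_le (K : Subgroup G) : Cfsg.fittingOf K ≤ K := Subgroup.map_subtype_le _

omit [Finite G] in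
theorem fittingOf_normal (K : Subgroup G) [K.Normal] : (Cfsg.fittingOf K).Normal := by
  haveI := Helper22.fittingSubgroup_characteristic ↥K
  exact Helper22.normal_map_subtype_of_characteristic K (Cfsg.fittingSubgroup ↥K)

omit [Finite G] in
/-- A nilpotent normal subgroup inside `K` lies in `F(K)`. -/
theorem le_fittingOf {K N : Subgroup G} (hNK : N ≤ K) [hN : N.Normal]
    (hn : Group.IsNilpotent N) : N ≤ Cfsg.fittingOf K := by
  intro n hnN
  have h1 : N.subgroupOf K ≤ Cfsg.fittingSubgroup ↥K := by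
    apply le_sSup
    refine ⟨inferInstance, ?_⟩
    exact (Group.isNilpotent_congr (Subgroup.subgroupOfEquivOfLe hNK)).mpr hn
  exact ⟨⟨n, hNK hnN⟩, h1 (Subgroup.mem_subgroupOf.mpr hnN), rfl⟩

omit [Finite G] in
theorem prime_dvd_card_of_mem [Finite G] {K : Subgroup G} {p : ℕ} (hp : p.Prime) {z : G} (hzK : z ∈ K)
    (hz : ∃ k : ℕ, z ^ (p ^ k) = 1) (hz1 : z ≠ 1) : p ∣ Nat.card K := by
  obtain ⟨k, hk⟩ := hz
  obtain ⟨i, -, hi⟩ := (Nat.dvd_prime_pow hp).mp (orderOf_dvd_of_pow_eq_one hk)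
  have hi0 : i ≠ 0 := by
    rintro rfl
    rw [pow_zero] at hi
    exact hz1 (orderOf_eq_one_iff.mp hi)
  have h1 : p ∣ orderOf z := by rw [hi]; exact dvd_pow_self p hi0
  exact h1.trans (Subgroup.orderOf_dvd_natCard K hzK)

/-- If `M / F(K)` is a `q`-group, a `q`-element of `M` outside `F(K)` acts nontrivially on
`O_ℓ(K) / Φ(O_ℓ(K))` for some prime `ℓ ≠ q`. -/
theorem exists_not_centralize {K M : Subgroup G} [K.Normal] [M.Normal] (hMK : M ≤ K) {q : ℕ}
    (hq : q.Prime) (hMq : ∀ m ∈ M, ∃ j : ℕ, m ^ (q ^ j) ∈ Cfsg.fittingOf K)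
    {c : G} (hcM : c ∈ M) (hcq : ∃ j : ℕ, c ^ (q ^ j) = 1) (hcF : c ∉ Cfsg.fittingOf K) :
    ∃ ℓ : ℕ, ℓ.Prime ∧ ℓ ≠ q ∧ ∃ y ∈ oq ℓ K, c * y * c⁻¹ * y⁻¹ ∉ frat (oq ℓ K) := by
  by_contra hcon
  have hall : ∀ ℓ : ℕ, ℓ.Prime → ℓ ≠ q → ∀ y ∈ oq ℓ K, c * y * c⁻¹ * y⁻¹ ∈ frat (oq ℓ K) := by
    intro ℓ hℓ hℓq y hy
    by_contra h
    exact hcon ⟨ℓ, hℓ, hℓq, y, hy, h⟩
  haveI : Fact q.Prime := ⟨hq⟩
  haveI hnorm : ∀ ℓ : ℕ, (oq ℓ K).Normal := fun ℓ => oq_normal ℓ K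
  obtain ⟨N, hNdef⟩ : ∃ N : Subgroup G,
      N = ⨆ (ℓ : Nat.Primes) (_ : (ℓ : ℕ) ≠ q), oq (ℓ : ℕ) K := ⟨_, rfl⟩
  haveI hNn : N.Normal := by
    rw [hNdef]
    haveI : ∀ ℓ : Nat.Primes, (⨆ (_ : (ℓ : ℕ) ≠ q), oq (ℓ : ℕ) K).Normal := fun ℓ => by
      infer_instance
    infer_instance
  -- `c` centralises `N`
  have hcN : N ≤ centralizer ({c} : Set G) := by
    rw [hNdef]
    refine iSup_le fun ℓ => iSup_le fun hℓq => ?_
    haveI : Fact (ℓ : ℕ).Prime := ⟨ℓ.2⟩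
    intro y hy
    have hcop : (orderOf c).Coprime (ℓ : ℕ) := by
      obtain ⟨j, hj⟩ := hcq
      have h1 : orderOf c ∣ q ^ j := orderOf_dvd_of_pow_eq_one hj
      have h2 : Nat.Coprime (q ^ j) (ℓ : ℕ) :=
        Nat.Coprime.pow_left j ((Nat.coprime_primes hq ℓ.2).mpr (Ne.symm hℓq))
      exact Nat.Coprime.coprime_dvd_left h1 h2
    have h3 := Helper35.centralizes_of_coprime_of_frattini (oq_isPGroup (ℓ : ℕ) K)
      (h := c) (by rw [normalizer_eq_top_iff.mpr (hnorm _)]; exact mem_top _) hcop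
      (hall ℓ ℓ.2 hℓq) y hy
    rw [mem_centralizer_iff]
    intro h hh
    rw [Set.mem_singleton_iff.mp hh]
    exact h3
  -- `F(K) ≤ O_q(K) N`
  have hFle : Cfsg.fittingOf K ≤ oq q K ⊔ N := by
    rw [fittingOf_eq_iSup]
    refine iSup_le fun ℓ => ?_
    by_cases hℓq : (ℓ : ℕ) = q
    · rw [hℓq]; exact le_sup_left
    · refine le_trans ?_ le_sup_right
      rw [hNdef]
      exact le_iSup₂ (f := fun (ℓ : Nat.Primes) (_ : (ℓ : ℕ) ≠ q) => oq (ℓ : ℕ) K) ℓ hℓq
  -- the subgroup `C = C_M(N)`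
  obtain ⟨C, hCdef⟩ : ∃ C : Subgroup G, C = M ⊓ centralizer (N : Set G) := ⟨_, rfl⟩
  haveI hCn : C.Normal := by rw [hCdef]; infer_instance
  have hcC : c ∈ C := by
    rw [hCdef]
    refine ⟨hcM, mem_centralizer_iff.mpr fun n hn => ?_⟩
    exact (mem_centralizer_iff.mp (hcN hn) c rfl).symm
  have hCM : C ≤ M := by rw [hCdef]; exact inf_le_left
  have hCcent : ∀ w ∈ C, ∀ n ∈ N, n * w = w * n := by
    intro w hw n hn
    rw [hCdef] at hw
    exact mem_centralizer_iff.mp hw.2 n hn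
  have hCnil : Group.IsNilpotent C := by
    let f : ↥C →* G ⧸ N := (QuotientGroup.mk' N).comp C.subtype
    have hker : f.rangeRestrict.ker ≤ center ↥C := by
      intro z hz
      rw [MonoidHom.mem_ker] at hz
      have hz' : f z = 1 := congrArg Subtype.val hz
      have hzN : (z : G) ∈ N := (QuotientGroup.eq_one_iff _).mp hz'
      rw [mem_center_iff]
      intro w
      apply Subtype.ext
      show (w : G) * z = z * w
      exact (hCcent w w.2 z hzN).symm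
    have hrange : IsPGroup q f.range := by
      rintro ⟨_, w, rfl⟩
      obtain ⟨j, hj⟩ := hMq w (hCM w.2)
      have h1 : ((w : G) ^ (q ^ j)) ∈ ((oq q K ⊔ N : Subgroup G) : Set G) := hFle hj
      rw [Subgroup.mul_normal] at h1
      obtain ⟨u, hu, n, hn, hun⟩ := Set.mem_mul.mp h1
      obtain ⟨i, hi⟩ := oq_isPGroup q K ⟨u, hu⟩
      have hi' : u ^ (q ^ i) = 1 := congrArg Subtype.val hi
      refine ⟨j + i, Subtype.ext ?_⟩
      show f w ^ (q ^ (j + i)) = 1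
      have h2 : f w ^ (q ^ j) = QuotientGroup.mk' N u := by
        show (QuotientGroup.mk' N (w : G)) ^ (q ^ j) = QuotientGroup.mk' N u
        have hn1 : QuotientGroup.mk' N n = 1 := (QuotientGroup.eq_one_iff n).mpr hn
        rw [← map_pow, ← hun, map_mul, hn1, mul_one]
      rw [pow_add, pow_mul, h2, ← map_pow, hi', map_one]
    haveI : Group.IsNilpotent f.range := hrange.isNilpotent
    exact Subgroup.isNilpotent_of_ker_le_center f.rangeRestrict hker
  exact hcF (le_fittingOf (hCM.trans hMK) hCnil hcC)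

/-- If `M / F(K)` is a `q`-group, then `x` centralises `M / F(K)`. -/
theorem comm_mem_of_quot_qgroup (hodd : Odd (Nat.card G)) {K M : Subgroup G} [K.Normal]
    [M.Normal] (hMK : M ≤ K) {q r : ℕ} (hq : q.Prime) (hr : r.Prime)
    (hMq : ∀ m ∈ M, ∃ j : ℕ, m ^ (q ^ j) ∈ Cfsg.fittingOf K)
    (x : G) (hxr : x ^ r = 1) (hrK : ¬ r ∣ Nat.card K)
    (hfix : ∀ a ∈ Cfsg.fittingOf K, x * a = a * x → a = 1) :
    ∀ m ∈ M, x * m * x⁻¹ * m⁻¹ ∈ Cfsg.fittingOf K := by
  haveI : Fact q.Prime := ⟨hq⟩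
  haveI hFn := fittingOf_normal K
  have hAM : zpowers x ≤ normalizer ((M : Subgroup G) : Set G) := by
    rw [normalizer_eq_top_iff.mpr inferInstance]; exact le_top
  have hcop : (Nat.card (zpowers x)).Coprime (Nat.card M) := by
    have h2 : Nat.card (zpowers x) ∣ r := by
      rw [Nat.card_zpowers]; exact orderOf_dvd_of_pow_eq_one hxr
    have h3 : Nat.Coprime r (Nat.card K) := (Nat.Prime.coprime_iff_not_dvd hr).mpr hrK
    exact Nat.Coprime.coprime_dvd_left h2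
      (Nat.Coprime.coprime_dvd_right (Subgroup.card_dvd_of_le hMK) h3)
  obtain ⟨Q, hQS, hAQ⟩ := Helper35.exists_invariant_sylow hAM hcop
    (Or.inl (zpowers_isSolvable x)) q
  have hQM : Q ≤ M := hQS.1
  have hQq : IsPGroup q Q := Helper35.isPGroup_of_mem_sylowSet hQS
  have hxQ : ∀ g ∈ Q, x * g * x⁻¹ ∈ Q := fun g hg =>
    (mem_normalizer_iff.mp (hAQ (mem_zpowers x)) g).mp hg
  -- Step 1
  have h1 : ∀ g ∈ Q, x * g * x⁻¹ * g⁻¹ ∈ Cfsg.fittingOf K := by
    intro g hg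
    by_contra hcF
    have hcQ : x * g * x⁻¹ * g⁻¹ ∈ Q := mul_mem (hxQ g hg) (inv_mem hg)
    have hcq : ∃ j : ℕ, (x * g * x⁻¹ * g⁻¹) ^ (q ^ j) = 1 := by
      obtain ⟨j, hj⟩ := hQq ⟨_, hcQ⟩
      exact ⟨j, congrArg Subtype.val hj⟩
    obtain ⟨ℓ, hℓ, hℓq, y, hy, hny⟩ := exists_not_centralize hMK hq hMq (hQM hcQ) hcq hcF
    haveI := oq_normal ℓ K
    have hy1 : y ≠ 1 := by
      rintro rfl
      apply hny
      simp
    have hℓK : ℓ ∣ Nat.card K := by
      obtain ⟨j, hj⟩ := oq_isPGroup ℓ K ⟨y, hy⟩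
      exact prime_dvd_card_of_mem hℓ (oq_le ℓ K hy) ⟨j, congrArg Subtype.val hj⟩ hy1
    have hqK : q ∣ Nat.card K :=
      prime_dvd_card_of_mem hq (hMK (hQM hcQ)) hcq (fun h => hcF (h ▸ one_mem _))
    have hℓr : ℓ ≠ r := fun h => hrK (h ▸ hℓK)
    have hqr : q ≠ r := fun h => hrK (h ▸ hqK)
    exact hny (shult_odd hℓ hq hr hℓq hℓr hqr hodd (oq ℓ K) (oq_isPGroup ℓ K) Q hQq x hxr hxQ
      (fun a ha => hfix a (oq_le_fittingOf hℓ K ha)) g hg y hy)
  -- Step 2: `M = Q F`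
  have h2 : ∀ m ∈ M, ∃ g ∈ Q, g⁻¹ * m ∈ Cfsg.fittingOf K := by
    obtain ⟨Q', hQ'⟩ := Helper35.exists_sylow_of_mem_sylowSet hQS
    let π := QuotientGroup.mk' (Cfsg.fittingOf K)
    let f : ↥M →* ↥(M.map π) := (π.comp M.subtype).codRestrict (M.map π)
      (fun m => ⟨m, m.2, rfl⟩)
    have hf : Function.Surjective f := by
      rintro ⟨_, m, hm, rfl⟩
      exact ⟨⟨m, hm⟩, rfl⟩
    have hRh : IsPGroup q ↥(M.map π) := by
      rintro ⟨_, m, hm, rfl⟩
      obtain ⟨j, hj⟩ := hMq m hm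
      refine ⟨j, Subtype.ext ?_⟩
      show π m ^ (q ^ j) = 1
      rw [← map_pow]
      exact (QuotientGroup.eq_one_iff _).mpr hj
    have hT : ((Q'.mapSurjective hf : Sylow q ↥(M.map π)) : Subgroup ↥(M.map π)) = ⊤ :=
      ((Q'.mapSurjective hf).3 (hRh.to_subgroup ⊤) le_top).symm
    rw [Sylow.coe_mapSurjective] at hT
    intro m hm
    have hmem : (⟨π m, m, hm, rfl⟩ : ↥(M.map π)) ∈ (Q' : Subgroup ↥M).map f := by
      rw [hT]; exact mem_top _
    obtain ⟨s, hs, hs'⟩ := hmem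
    have hs'' : π (s : G) = π m := congrArg Subtype.val hs'
    refine ⟨(s : G), ?_, ?_⟩
    · rw [← hQ']; exact ⟨s, hs, rfl⟩
    · exact QuotientGroup.eq.mp hs''
  intro m hm
  obtain ⟨g, hg, hgm⟩ := h2 m hm
  have hF := hFn
  have e : x * m * x⁻¹ * m⁻¹ = (x * g * x⁻¹ * g⁻¹) *
      (g * ((x * (g⁻¹ * m) * x⁻¹) * (g⁻¹ * m)⁻¹) * g⁻¹) := by group
  rw [e]
  exact mul_mem (h1 g hg) (hF.conj_mem _ (mul_mem (hF.conj_mem _ hgm x) (inv_mem hgm)) g)

/-- **Bender–Glauberman 3.x (core)**: in a solvable group of odd order, an element `x` with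
`x ^ r = 1`, `r` a prime not dividing `|K|`, without fixed points on `F(K)`, centralises
`K / F(K)`. -/
theorem comm_mem_fittingOf [Group.IsSolvable G] (hodd : Odd (Nat.card G)) (K : Subgroup G)
    [K.Normal] {r : ℕ} (hr : r.Prime) (x : G) (hxr : x ^ r = 1) (hrK : ¬ r ∣ Nat.card K)
    (hfix : ∀ a ∈ Cfsg.fittingOf K, x * a = a * x → a = 1) :
    ∀ k ∈ K, x * k * x⁻¹ * k⁻¹ ∈ Cfsg.fittingOf K := by
  haveI hFn := fittingOf_normal K
  obtain ⟨π, hπdef⟩ : ∃ π : G →* G ⧸ Cfsg.fittingOf K,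
      π = QuotientGroup.mk' (Cfsg.fittingOf K) := ⟨_, rfl⟩
  have hπ : Function.Surjective π := by rw [hπdef]; exact QuotientGroup.mk'_surjective _
  have hker : ∀ z : G, π z = 1 ↔ z ∈ Cfsg.fittingOf K := fun z => by
    rw [hπdef]; exact QuotientGroup.eq_one_iff z
  haveI hKbn : (K.map π).Normal := Subgroup.Normal.map inferInstance π hπ
  haveI hF2n : (Cfsg.fittingOf (K.map π)).Normal := fittingOf_normal (K.map π)
  -- Claim 1: `π x` centralises `F(K / F)`
  have hcl1 : ∀ z ∈ Cfsg.fittingOf (K.map π), π x * z = z * π x := by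
    have hle : Cfsg.fittingOf (K.map π) ≤ centralizer ({π x} : Set (G ⧸ Cfsg.fittingOf K)) := by
      rw [fittingOf_eq_iSup (K.map π)]
      refine iSup_le fun ℓ => ?_
      intro z hz
      obtain ⟨m, rfl⟩ := hπ z
      haveI : ((oq (ℓ : ℕ) (K.map π)).comap π).Normal :=
        Subgroup.Normal.comap (oq_normal (ℓ : ℕ) (K.map π)) π
      have hMK : (oq (ℓ : ℕ) (K.map π)).comap π ≤ K := by
        intro m' hm'
        have h1 : π m' ∈ K.map π := oq_le _ _ (Subgroup.mem_comap.mp hm')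
        obtain ⟨k, hk, hkm⟩ := h1
        have h2 : π (k⁻¹ * m') = 1 := by rw [map_mul, map_inv, hkm, inv_mul_cancel]
        have h3 : k⁻¹ * m' ∈ K := fittingOf_le K ((hker _).mp h2)
        have : m' = k * (k⁻¹ * m') := by group
        rw [this]; exact mul_mem hk h3
      have hMq : ∀ m' ∈ (oq (ℓ : ℕ) (K.map π)).comap π,
          ∃ j : ℕ, m' ^ ((ℓ : ℕ) ^ j) ∈ Cfsg.fittingOf K := by
        intro m' hm'
        obtain ⟨j, hj⟩ := oq_isPGroup (ℓ : ℕ) (K.map π) ⟨π m', Subgroup.mem_comap.mp hm'⟩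
        refine ⟨j, (hker _).mp ?_⟩
        rw [map_pow]
        exact congrArg Subtype.val hj
      have h4 := comm_mem_of_quot_qgroup hodd hMK ℓ.2 hr hMq x hxr hrK hfix m
        (Subgroup.mem_comap.mpr hz)
      have h5 : π (x * m * x⁻¹ * m⁻¹) = 1 := (hker _).mpr h4
      simp only [map_mul, map_inv] at h5
      rw [mem_centralizer_iff]
      intro h hh
      rw [Set.mem_singleton_iff.mp hh]
      calc π x * π m = (π x * π m * (π x)⁻¹ * (π m)⁻¹) * (π m * π x) := by group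
        _ = π m * π x := by rw [h5, one_mul]
    intro z hz
    exact mem_centralizer_iff.mp (hle hz) (π x) rfl
  -- Claim 2: `C_{K/F}(F(K/F)) ≤ F(K/F)`
  have hcl2 : ∀ z ∈ K.map π, (∀ w ∈ Cfsg.fittingOf (K.map π), w * z = z * w) →
      z ∈ Cfsg.fittingOf (K.map π) := by
    intro z hz hcomm
    have h1 : (⟨z, hz⟩ : ↥(K.map π)) ∈
        centralizer ((Cfsg.fittingSubgroup ↥(K.map π) : Subgroup ↥(K.map π)) :
          Set ↥(K.map π)) := by
      rw [mem_centralizer_iff]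
      intro w hw
      apply Subtype.ext
      exact hcomm (w : G ⧸ Cfsg.fittingOf K) ⟨w, hw, rfl⟩
    exact ⟨⟨z, hz⟩, Helper22.centralizer_fittingSubgroup_le_of_isSolvable h1, rfl⟩
  intro k hk
  rw [← hker]
  have hkb : π k ∈ K.map π := ⟨k, hk, rfl⟩
  obtain ⟨c, hcdef⟩ : ∃ c : G ⧸ Cfsg.fittingOf K, c = π x * π k * (π x)⁻¹ * (π k)⁻¹ := ⟨_, rfl⟩
  have hcK : c ∈ K.map π := by
    rw [hcdef]; exact mul_mem (hKbn.conj_mem _ hkb _) (inv_mem hkb)
  have hcF : c ∈ Cfsg.fittingOf (K.map π) := by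
    apply hcl2 c hcK
    intro w hw
    have h1 := hcl1 w hw
    have h2 := hcl1 _ (hF2n.conj_mem w hw (π k)⁻¹)
    have h3 : c * w * c⁻¹ = w := by
      rw [hcdef]
      have e : π x * π k * (π x)⁻¹ * (π k)⁻¹ * w * (π x * π k * (π x)⁻¹ * (π k)⁻¹)⁻¹ =
          π x * π k * ((π x)⁻¹ * ((π k)⁻¹ * w * (π k)⁻¹⁻¹) * π x) * (π k)⁻¹ * (π x)⁻¹ := by group
      rw [e, mul_assoc (π x)⁻¹, ← h2]
      have e2 : π x * π k * ((π x)⁻¹ * (π x * ((π k)⁻¹ * w * (π k)⁻¹⁻¹))) * (π k)⁻¹ * (π x)⁻¹ =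
          π x * w * (π x)⁻¹ := by group
      rw [e2, h1]; group
    calc w * c = w * c := rfl
      _ = (c * w * c⁻¹) * c := by rw [h3]
      _ = c * w := by group
  have hcx : π x * c = c * π x := hcl1 c hcF
  have hpow : ∀ i : ℕ, π x ^ i * π k * (π x ^ i)⁻¹ = c ^ i * π k := by
    intro i
    induction i with
    | zero => simp
    | succ i ih =>
      have e : π x ^ (i + 1) * π k * (π x ^ (i + 1))⁻¹ =
          π x * (π x ^ i * π k * (π x ^ i)⁻¹) * (π x)⁻¹ := by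
        rw [pow_succ']; group
      rw [e, ih]
      have hc' : Commute (π x) (c ^ i) := Commute.pow_right hcx i
      have e2 : π x * (c ^ i * π k) * (π x)⁻¹ = (π x * c ^ i) * (π k * (π x)⁻¹) := by group
      rw [e2, hc'.eq, pow_succ]
      have e3 : π x * π k * (π x)⁻¹ * (π k)⁻¹ * π k = π x * π k * (π x)⁻¹ := by group
      rw [mul_assoc (c ^ i) c, hcdef, e3]
      rw [← hcdef]; group
  have hcr : c ^ r = 1 := by
    have h1 := hpow r
    rw [← map_pow, hxr, map_one] at h1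
    simp only [one_mul, inv_one, mul_one] at h1
    have h2 : c ^ r * π k = 1 * π k := by rw [one_mul]; exact h1.symm
    exact mul_right_cancel h2
  have hcard : Nat.card ↥(K.map π) ∣ Nat.card K := Subgroup.card_map_dvd K π
  have hcK' : c ^ Nat.card ↥(K.map π) = 1 := by
    have h1 : orderOf c ∣ Nat.card ↥(K.map π) := Subgroup.orderOf_dvd_natCard _ hcK
    exact orderOf_dvd_iff_pow_eq_one.mp h1
  have hcop : Nat.Coprime r (Nat.card ↥(K.map π)) :=
    Nat.Coprime.coprime_dvd_right hcard ((Nat.Prime.coprime_iff_not_dvd hr).mpr hrK)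
  have hc1 : c = 1 := by
    have h1 : orderOf c ∣ r := orderOf_dvd_of_pow_eq_one hcr
    have h2 : orderOf c ∣ Nat.card ↥(K.map π) := orderOf_dvd_of_pow_eq_one hcK'
    exact orderOf_eq_one_iff.mp (Nat.eq_one_of_dvd_coprimes hcop h1 h2)
  simp only [map_mul, map_inv]
  rw [← hcdef]; exact hc1

/-- **Bender–Glauberman 3.x**: let `G = K R` be solvable of odd order with `K` normal and
`(|K|, |R|) = 1`; if `C_K(x) = C_K(R)` for every nontrivial `x ∈ R` and `C_{F(K)}(R) = 1`, then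
`[K, R] ≤ F(K)`.  (`K ⊔ R = ⊤` is not needed.) -/
theorem commutator_le_fittingOf [Group.IsSolvable G] (hodd : Odd (Nat.card G)) (K R : Subgroup G)
    [K.Normal] (hcop : (Nat.card K).Coprime (Nat.card R))
    (hprime : ∀ x ∈ R, x ≠ 1 → K ⊓ centralizer ({x} : Set G) = K ⊓ centralizer (R : Set G))
    (hF : Cfsg.fittingOf K ⊓ centralizer (R : Set G) = ⊥) :
    ⁅K, R⁆ ≤ Cfsg.fittingOf K := by
  haveI hFn := fittingOf_normal K
  rw [Subgroup.commutator_le]
  intro k hk y hy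
  by_cases hR : R = ⊥
  · rw [hR, mem_bot] at hy
    rw [hy]; simp
  -- an element of prime order of `R`
  have hR1 : Nat.card R ≠ 1 := fun h => hR (Subgroup.card_eq_one.mp h)
  obtain ⟨r, hr, hrR⟩ := Nat.exists_prime_and_dvd hR1
  haveI : Fact r.Prime := ⟨hr⟩
  obtain ⟨x', hx'⟩ := exists_prime_orderOf_dvd_card' (G := ↥R) r hrR
  obtain ⟨x, hxR, hxdef⟩ : ∃ x : G, x ∈ R ∧ x = (x' : G) := ⟨_, x'.2, rfl⟩
  have hxo : orderOf x = r := by rw [hxdef, Subgroup.orderOf_coe]; exact hx'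
  have hxr : x ^ r = 1 := by rw [← hxo]; exact pow_orderOf_eq_one x
  have hx1 : x ≠ 1 := by
    rintro rfl
    rw [orderOf_one] at hxo
    exact hr.one_lt.ne' hxo.symm
  have hrK : ¬ r ∣ Nat.card K := fun h =>
    hr.one_lt.ne' (Nat.eq_one_of_dvd_coprimes hcop h hrR)
  have hfix : ∀ a ∈ Cfsg.fittingOf K, x * a = a * x → a = 1 := by
    intro a ha hxa
    have h1 : a ∈ K ⊓ centralizer ({x} : Set G) := by
      refine ⟨fittingOf_le K ha, mem_centralizer_iff.mpr ?_⟩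
      intro h hh
      rw [Set.mem_singleton_iff.mp hh]; exact hxa
    rw [hprime x hxR hx1] at h1
    have h2 : a ∈ Cfsg.fittingOf K ⊓ centralizer (R : Set G) := ⟨ha, h1.2⟩
    rw [hF] at h2
    exact mem_bot.mp h2
  have hcore := comm_mem_fittingOf hodd K hr x hxr hrK hfix
  -- `K = C_K(x) F`
  have hAN : zpowers x ≤ normalizer ((Cfsg.fittingOf K : Subgroup G) : Set G) := by
    rw [normalizer_eq_top_iff.mpr hFn]; exact le_top
  have hcop' : (Nat.card (zpowers x)).Coprime (Nat.card (Cfsg.fittingOf K)) := by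
    have h2 : Nat.card (zpowers x) ∣ r := by
      rw [Nat.card_zpowers]; exact orderOf_dvd_of_pow_eq_one hxr
    have h3 : Nat.Coprime r (Nat.card K) := (Nat.Prime.coprime_iff_not_dvd hr).mpr hrK
    exact Nat.Coprime.coprime_dvd_left h2
      (Nat.Coprime.coprime_dvd_right (Subgroup.card_dvd_of_le (fittingOf_le K)) h3)
  have hx' : ∀ a' ∈ zpowers x, k⁻¹ * a' * k * a'⁻¹ ∈ Cfsg.fittingOf K := by
    intro a' ha'
    obtain ⟨i, rfl⟩ := mem_zpowers_iff.mp ha'
    have h1 : QuotientGroup.mk' (Cfsg.fittingOf K) (x * k * x⁻¹ * k⁻¹) = 1 :=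
      (QuotientGroup.eq_one_iff _).mpr (hcore k hk)
    rw [← QuotientGroup.eq_one_iff, ← QuotientGroup.mk'_apply]
    simp only [map_mul, map_inv] at h1
    have h2 : Commute (QuotientGroup.mk' (Cfsg.fittingOf K) x)
        (QuotientGroup.mk' (Cfsg.fittingOf K) k) := by
      show _ * _ = _ * _
      calc QuotientGroup.mk' (Cfsg.fittingOf K) x * QuotientGroup.mk' (Cfsg.fittingOf K) k
          = (QuotientGroup.mk' (Cfsg.fittingOf K) x * QuotientGroup.mk' (Cfsg.fittingOf K) k *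
              (QuotientGroup.mk' (Cfsg.fittingOf K) x)⁻¹ *
              (QuotientGroup.mk' (Cfsg.fittingOf K) k)⁻¹) *
            (QuotientGroup.mk' (Cfsg.fittingOf K) k * QuotientGroup.mk' (Cfsg.fittingOf K) x) := by
              group
        _ = _ := by rw [h1, one_mul]
    have h3 := Commute.zpow_left h2 i
    simp only [map_mul, map_inv, map_zpow]
    rw [mul_assoc (QuotientGroup.mk' (Cfsg.fittingOf K) k)⁻¹, h3.eq]; group
  obtain ⟨c, hc, hkc⟩ := Helper35.exists_fixed_in_coset hAN hcop'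
    (Or.inl (zpowers_isSolvable x)) k hx'
  have hcK : c ∈ K := by
    have : c = k * (k⁻¹ * c) := by group
    rw [this]; exact mul_mem hk (fittingOf_le K hkc)
  have hcR : c ∈ K ⊓ centralizer (R : Set G) := by
    rw [← hprime x hxR hx1]
    refine ⟨hcK, mem_centralizer_iff.mpr ?_⟩
    intro h hh
    rw [Set.mem_singleton_iff.mp hh]
    exact mem_centralizer_iff.mp hc x (mem_zpowers x)
  have hyc : y * c = c * y := mem_centralizer_iff.mp hcR.2 y hy
  have hf : c⁻¹ * k ∈ Cfsg.fittingOf K := by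
    have : c⁻¹ * k = (k⁻¹ * c)⁻¹ := by group
    rw [this]; exact inv_mem hkc
  have e : ⁅k, y⁆ = c * ((c⁻¹ * k) * (y * (c⁻¹ * k)⁻¹ * y⁻¹)) * c⁻¹ := by
    rw [commutatorElement_def]
    have hyc' : y * c⁻¹ = c⁻¹ * y := by
      have : y * c⁻¹ = c⁻¹ * (c * y) * c⁻¹ := by group
      rw [this, ← hyc]; group
    calc k * y * k⁻¹ * y⁻¹ = k * y * k⁻¹ * c * (c⁻¹ * y⁻¹) := by group
      _ = k * y * k⁻¹ * c * (y * c)⁻¹ := by rw [mul_inv_rev]
      _ = k * y * k⁻¹ * c * (c * y)⁻¹ := by rw [hyc]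
      _ = c * ((c⁻¹ * k) * (y * (c⁻¹ * k)⁻¹ * y⁻¹)) * c⁻¹ := by group
  rw [e]
  exact hFn.conj_mem _ (mul_mem hf (hFn.conj_mem _ (inv_mem hf) y)) c

end FitAct
end Cfsg.Agent.Helper62
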