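/-
helper62: Bender–Glauberman Theorem 3.6 (S1444), reduction part 2: step R4 (`C_V(K) = 1`, by the
subdirect-product argument) and the assembly: a minimal counterexample `MC p H R x` does not
exist (structure lemma `Helper49.bg36_structure`, core `Helper72.bg36_core`).
-/
import Mathlib
import Cfsg.Agent.Helper62.BG36Red1
import Cfsg.Agent.Helper72.BG36Core
import Cfsg.Agent.Helper49.BG36D3
import Cfsg.Agent.Helper35.SZ
import Cfsg.Agent.Helper63.PLength

set_option autoImplicit false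
set_option linter.style.haveILetI false
set_option linter.unusedSectionVars false

namespace Cfsg.Agent.Helper62.BG36

open Subgroup Cfsg.Agent.Helper72
open scoped commutatorElement

universe u

variable {G : Type u} [Group G] [Finite G] [Group.IsSolvable G] {p : ℕ} [Fact p.Prime]
  {H R : Subgroup G} {x : G}

/-- R4: `C_V(K) = 1`. -/
theorem MC.r4 (h : MC p H R x) {L K : Subgroup G} [L.Normal] (hLH : L ≤ H) (hKL : K ≤ L)
    (hKp : (Nat.card K).Coprime p) (hK1 : K ≠ ⊥) (hLVK : L = FitAct.oq p H ⊔ K) :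
    FitAct.oq p H ⊓ centralizer (K : Set G) = ⊥ := by
  haveI := h.hn
  haveI := FitAct.oq_normal p H
  obtain ⟨V, hV⟩ : ∃ V : Subgroup G, V = FitAct.oq p H := ⟨_, rfl⟩
  rw [← hV] at hLVK ⊢
  haveI : V.Normal := by rw [hV]; infer_instance
  have hVH : V ≤ H := by rw [hV]; exact FitAct.oq_le p H
  have hVab : ∀ a ∈ V, ∀ b ∈ V, a * b = b * a := by rw [hV]; exact h.V_ab.1
  have hVp : IsPGroup p V := by rw [hV]; exact FitAct.oq_isPGroup p H
  have hcent : H ⊓ centralizer (V : Set G) ≤ V := by rw [hV]; exact h.cent_le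
  have hVKbot : V ⊓ K = ⊥ := ut_inf_eq_bot hVp hKp
  have hKV : (Nat.card K).Coprime (Nat.card V) := by
    obtain ⟨n, hn⟩ := (IsPGroup.iff_card).mp hVp
    rw [hn]
    exact Nat.Coprime.pow_right n hKp
  have hN12 : (V ⊓ centralizer (L : Set G)) ⊓ ⁅V, L⁆ = ⊥ := by
    have h1 : V ⊓ centralizer (L : Set G) ≤ centralizer (K : Set G) :=
      inf_le_right.trans (Subgroup.centralizer_le hKL)
    have h2 : (⁅V, L⁆ : Subgroup G) ≤ ⁅V, K⁆ := by
      rw [Subgroup.commutator_le]
      intro v hv l hl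
      rw [hLVK] at hl
      obtain ⟨v', hv', k, hk, rfl⟩ := Cfsg.Agent.Helper35.exists_mul_of_mem_sup_normal hl
      have hc : ⁅v, k⁆ ∈ V := by
        rw [commutatorElement_def]
        have h3 : k * v⁻¹ * k⁻¹ ∈ V := (inferInstance : V.Normal).conj_mem _ (inv_mem hv) k
        have h4 := mul_mem hv h3
        simpa [mul_assoc] using h4
      have e1 : ⁅v, v' * k⁆ = v' * ⁅v, k⁆ * v'⁻¹ := by
        rw [commutatorElement_def, commutatorElement_def]
        have h5 := hVab v hv v' hv'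
        calc v * (v' * k) * v⁻¹ * (v' * k)⁻¹ = (v * v') * k * v⁻¹ * k⁻¹ * v'⁻¹ := by group
          _ = (v' * v) * k * v⁻¹ * k⁻¹ * v'⁻¹ := by rw [h5]
          _ = v' * (v * k * v⁻¹ * k⁻¹) * v'⁻¹ := by group
      have e : ⁅v, v' * k⁆ = ⁅v, k⁆ := by
        rw [e1, hVab v' hv' _ hc]; group
      rw [e]
      exact Subgroup.commutator_mem_commutator hv hk
    have h3 : (⁅V, K⁆ : Subgroup G) ⊓ centralizer (K : Set G) = ⊥ :=
      Cfsg.Agent.Helper35.commutator_inf_centralizer_eq_bot_of_comm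
        (by rw [normalizer_eq_top]; exact le_top) hKV hVab
    rw [eq_bot_iff, ← h3]
    exact le_inf (inf_le_right.trans h2) (inf_le_left.trans h1)
  have hN1 : V ⊓ centralizer (L : Set G) = ⊥ := by
    by_contra hne1
    have hN2 : (⁅V, L⁆ : Subgroup G) ≠ ⊥ := by
      intro e
      have h4 : V ≤ centralizer (L : Set G) := Subgroup.commutator_eq_bot_iff_le_centralizer.mp e
      have h5 : L ≤ centralizer (V : Set G) := Subgroup.le_centralizer_iff.mp h4
      have h6 : K ≤ V := fun k hk => hcent ⟨hLH (hKL hk), h5 (hKL hk)⟩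
      exact hK1 (by rw [eq_bot_iff, ← hVKbot]; exact le_inf h6 le_rfl)
    have q1 := h.quot (V ⊓ centralizer (L : Set G)) (inf_le_left.trans hVH) hne1
    have q2 := h.quot ⁅V, L⁆ ((Subgroup.commutator_le_left V L).trans hVH) hN2
    rw [h.comm_eq] at q1 q2
    exact h.npl' (bg36_pl1_of_two_map_mk p (inf_le_left.trans hVH)
      ((Subgroup.commutator_le_left V L).trans hVH) hN12 q1 q2)
  rw [eq_bot_iff, ← hN1]
  intro v hv
  refine ⟨hv.1, ?_⟩
  show v ∈ centralizer (L : Set G)
  rw [Subgroup.mem_centralizer_iff]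
  intro l hl
  have hl' : l ∈ V ⊔ K := by rw [← hLVK]; exact hl
  obtain ⟨v', hv', k, hk, rfl⟩ := Cfsg.Agent.Helper35.exists_mul_of_mem_sup_normal hl'
  have e1 := hVab v hv.1 v' hv'
  have e2 : k * v = v * k := Subgroup.mem_centralizer_iff.mp hv.2 k hk
  calc v' * k * v = v' * (k * v) := by group
    _ = v' * (v * k) := by rw [e2]
    _ = (v' * v) * k := by group
    _ = (v * v') * k := by rw [e1]
    _ = v * (v' * k) := by group

/-- A minimal counterexample to BG 3.6 does not exist. -/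
theorem MC.false (hodd : Odd (Nat.card G)) (h : MC p H R x) : False := by
  haveI := h.hn
  haveI := FitAct.oq_normal p H
  have hVH : FitAct.oq p H ≤ H := FitAct.oq_le p H
  have hVp : IsPGroup p (FitAct.oq p H) := FitAct.oq_isPGroup p H
  have hHV : H ≠ FitAct.oq p H := by
    intro e
    apply h.npl'
    have h1 : IsPGroup p ↥H := by rw [e]; exact hVp
    exact Cfsg.Agent.Helper63.PLen.pLengthLE_one_of_isPGroup p h1
  obtain ⟨L, K, hLn, hVL, hLH, hKL, hKp, -, hK1, hLVK, hRK, hfrat, hCL⟩ :=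
    Cfsg.Agent.Helper49.bg36_structure p H (FitAct.oq p H) R hVH hVp h.cent_le
      (fun B hB hn hBp => ut_op_le hB hn hBp) h.cop hHV
  haveI := hLn
  have hVK := h.r4 hLH hKL hKp hK1 hLVK
  have hpcl := bg36_core hodd p H R (FitAct.oq p H) L K x h.cop h.xR h.xprime h.zg h.comm_eq hVH
    h.V_ab.1 h.V_ab.2 h.cent_le (fun B hB hn hBp => ut_op_le hB hn hBp) h.opp_bot hVL hLH hKL hKp
    hLVK hRK hfrat hCL hVK
    (fun X R' hVX hXH hR' hxR' hn hX => h.claimA hVX hXH hR' hxR' hn hX)
  exact h.npl' (bg36_pl1_of_pcl p hpcl)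

end Cfsg.Agent.Helper62.BG36
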