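/-
helper62: Bender–Glauberman Theorem 3.6 (S1444): the induction frame (a minimal counterexample
`MC` exists if the theorem fails) and the passage from the element form `Main` to the literal
statement.
-/
import Mathlib
import Cfsg.Agent.Helper62.BG36Red2
import Cfsg.Agent.Helper68.BG36D1
import Cfsg.Agent.Helper35.HallCoprime
import Cfsg.Agent.Helper1.SZGen

set_option autoImplicit false
set_option linter.style.haveILetI false
set_option linter.unusedSectionVars false

namespace Cfsg.Agent.Helper62.BG36

open Subgroup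

universe u

theorem main_aux (p : ℕ) [Fact p.Prime] (n : ℕ) :
    ∀ (G : Type u) [Group G] [Finite G] [Group.IsSolvable G], Odd (Nat.card G) →
      Nat.card G ≤ n → Main p G := by
  induction n with
  | zero =>
    intro G _ _ _ _ hn
    have := Nat.card_pos (α := G)
    omega
  | succ n ih =>
    intro G _ _ _ hodd hn H R x hHn hcop hxR hx hZ
    by_contra hnpl
    haveI := hHn
    have hRH : R ≤ normalizer (H : Set G) := by rw [normalizer_eq_top]; exact le_top
    have hsub0 : ∀ X R' : Subgroup G, X ≤ H → R' ≤ R → x ∈ R' → R' ≤ normalizer (X : Set G) →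
        X ⊔ R' ≠ ⊤ → Cfsg.PLengthLE p 1 ↥(⁅X, R'⁆ : Subgroup G) := by
      intro X R' hXH hR'R hxR' hnorm hne
      refine Cfsg.Agent.Helper68.bg36_main_sub p hcop hxR hx hZ hXH hR'R hxR' hnorm ?_
      have hlt := Cfsg.Agent.Helper1.card_lt_of_ne_top (X ⊔ R') hne
      exact ih ↥(X ⊔ R' : Subgroup G)
        (Odd.of_dvd_nat hodd (Subgroup.card_subgroup_dvd_card _)) (by omega)
    have htop : H ⊔ R = ⊤ := by
      by_contra hne
      exact hnpl (hsub0 H R le_rfl le_rfl hxR hRH hne)
    have hHR : H ⊓ R = ⊥ := (Subgroup.disjoint_of_coprime_natCard hcop).eq_bot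
    have hcardG : Nat.card G = Nat.card H * Nat.card R := by
      rw [← Subgroup.card_top (G := G), ← htop]
      exact Cfsg.Agent.Helper35.card_sup_of_le_normalizer hRH hHR
    refine MC.false hodd (p := p) (H := H) (R := R) (x := x)
      ⟨hHn, hcop, hxR, hx, hZ, ?_, ?_, hnpl⟩
    · intro X R' hXH hR'R hxR' hnorm hne
      apply hsub0 X R' hXH hR'R hxR' hnorm
      intro htop'
      have hXR : X ⊓ R' = ⊥ := by rw [eq_bot_iff, ← hHR]; exact inf_le_inf hXH hR'R
      have h1 : Nat.card ↥(X ⊔ R' : Subgroup G) = Nat.card X * Nat.card R' :=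
        Cfsg.Agent.Helper35.card_sup_of_le_normalizer hnorm hXR
      rw [htop', Subgroup.card_top, hcardG] at h1
      have hX' : Nat.card X ≤ Nat.card H := Subgroup.card_le_of_le hXH
      have hR'' : Nat.card R' ≤ Nat.card R := Subgroup.card_le_of_le hR'R
      have hXpos : 0 < Nat.card X := Nat.card_pos
      have hRpos : 0 < Nat.card R' := Nat.card_pos
      rcases hne with hne | hne
      · have hlt : Nat.card X < Nat.card H :=
          lt_of_le_of_ne hX' (fun e => hne (Subgroup.eq_of_le_of_card_ge hXH e.ge))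
        nlinarith
      · have hlt : Nat.card R' < Nat.card R :=
          lt_of_le_of_ne hR'' (fun e => hne (Subgroup.eq_of_le_of_card_ge hR'R e.ge))
        nlinarith
    · intro N hN hNH hN1
      have hlt := Cfsg.Agent.Helper1.card_quotient_lt N hN1
      exact Cfsg.Agent.Helper68.bg36_main_quot p hcop hxR hx hZ N hNH
        (ih (G ⧸ N) (Odd.of_dvd_nat hodd (Subgroup.card_quotient_dvd_card N)) (by omega))

/-- Bender–Glauberman 3.6 in element form. -/
theorem main_all (p : ℕ) [Fact p.Prime] (G : Type u) [Group G] [Finite G] [Group.IsSolvable G]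
    (hodd : Odd (Nat.card G)) : Main p G :=
  main_aux p (Nat.card G) G hodd le_rfl

/-- From `Main` to the literal statement of S1444. -/
theorem result_of_main {G : Type u} [Group G] [Finite G] (p : ℕ) [Fact p.Prime]
    (hmain : Main p G) (H R R₀ : Subgroup G) [H.Normal] (hHall : (Nat.card H).Coprime H.index)
    (hR : Subgroup.IsComplement' H R) (hR₀ : R₀ ≤ R) (hR₀p : (Nat.card R₀).Prime)
    (hZ : IsZGroup ↥(H ⊓ Subgroup.centralizer (R₀ : Set G))) :
    Cfsg.PLengthLE p 1 ↥(⁅H, R⁆ : Subgroup G) := by
  haveI : Fact (Nat.card R₀).Prime := ⟨hR₀p⟩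
  haveI : IsCyclic ↥R₀ := isCyclic_of_prime_card rfl
  obtain ⟨g, hg⟩ := IsCyclic.exists_generator (α := ↥R₀)
  have hord : orderOf (g : G) = Nat.card R₀ := by
    rw [Subgroup.orderOf_coe, orderOf_eq_card_of_forall_mem_zpowers hg]
  have hcard : H.index = Nat.card R := hR.symm.index_eq_card
  have heq : H ⊓ centralizer ({(g : G)} : Set G) = H ⊓ centralizer (R₀ : Set G) := by
    congr 1
    ext y
    rw [Subgroup.mem_centralizer_iff, Subgroup.mem_centralizer_iff]
    constructor
    · intro h z hz
      obtain ⟨k, hk⟩ := Subgroup.mem_zpowers_iff.mp (hg ⟨z, hz⟩)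
      have hz' : z = (g : G) ^ k := by
        have := congrArg Subtype.val hk
        simpa using this.symm
      rw [hz']
      have hgy : Commute (g : G) y := h g (Set.mem_singleton _)
      exact (hgy.zpow_left k)
    · intro h z hz
      rw [Set.mem_singleton_iff] at hz
      rw [hz]; exact h g g.2
  exact hmain H R (g : G) inferInstance (by rw [← hcard]; exact hHall) (hR₀ g.2)
    (by rw [hord]; exact hR₀p) (by rw [heq]; exact hZ)

end Cfsg.Agent.Helper62.BG36
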