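import Cfsg.Prelude.Def_OddOrderLocal

/-!
# S1351 (B&G 13.10-13.13), shared definition: the `τ₃`-nonregular datum

`T3NR M E P p`: `E` is a complement of `M_σ` in the maximal subgroup `M`, `P ≤ E` has order
`p ∈ τ₃(M)` and `C_{M_σ}(P) ≠ 1`.
-/

set_option autoImplicit false

namespace Cfsg.Agent.Helper62

open Cfsg Subgroup

universe u

/-- The `τ₃`-nonregular datum. -/
structure T3NR {G : Type u} [Group G] (M E P : Subgroup G) (p : ℕ) : Prop where
  hM : IsCoatom M
  hE : IsComplIn E (sigmaCore M) M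
  hp : p ∈ tau3 M
  hPE : P ≤ E
  hP : Nat.card P = p
  hne : sigmaCore M ⊓ centralizer (P : Set G) ≠ ⊥

end Cfsg.Agent.Helper62
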