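/-
CALL S1356 (helper99), piece FROB: `D'` centralizes `Q/Q₀` (row S1446 applied in `M/Q₀`).
-/
import Cfsg.Prelude.Def_OddOrderLocal
import Cfsg.Agent.S1446
import Cfsg.Agent.Helper35.Coprime
import Cfsg.Agent.Helper22.Transitivity

set_option autoImplicit false

namespace Cfsg.Agent.Helper62

open Cfsg Subgroup
open scoped commutatorElement

universe u

variable {G : Type u} [Group G] [Finite G]

/-- Auxiliary form of FROB with an abstract surjection `f : ↥M →* X` with kernel `Q₀`. -/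
theorem bg56_frob_aux {M Q Q₀ D K : Subgroup G} {q : ℕ} (hq : q.Prime)
    (hodd : Odd (Nat.card G)) (hsol : Group.IsSolvable ↥M)
    (hQM : Q ≤ M) (hDM : D ≤ M) (hKM : K ≤ M)
    (hQn : M ≤ normalizer (Q : Set G)) (hQ₀n : M ≤ normalizer (Q₀ : Set G))
    (hQ₀ : Q₀ = Q ⊓ centralizer (D : Set G)) (hQ : IsPGroup q Q)
    (hDq : ¬ q ∣ Nat.card D) (hD1 : D ≠ ⊥) (hKD : K ≤ normalizer (D : Set G))
    (hKp : (Nat.card K).Prime) (hKq : Nat.card K ≠ q) (hKD0 : K ⊓ D = ⊥)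
    (hfpf : ∀ r ∈ K, r ≠ 1 → D ⊓ centralizer ({r} : Set G) = ⊥)
    (hcard : Nat.card Q = Nat.card Q₀ * q ^ Nat.card K)
    {X : Type u} [Group X] [Finite X] (f : ↥M →* X) (hsurj : Function.Surjective f)
    (hf1 : ∀ a : ↥M, f a = 1 ↔ (a : G) ∈ Q₀) :
    ∀ d ∈ ⁅D, D⁆, ∀ x ∈ Q, d * x * d⁻¹ * x⁻¹ ∈ Q₀ := by
  classical
  haveI : Fact q.Prime := ⟨hq⟩
  haveI := hsol
  haveI hXsol : Group.IsSolvable X := Group.isSolvable_of_surjective hsurj
  have hQ₀Q : Q₀ ≤ Q := by rw [hQ₀]; exact inf_le_left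
  have hQ₀C : Q₀ ≤ centralizer (D : Set G) := by rw [hQ₀]; exact inf_le_right
  have hQ₀M : Q₀ ≤ M := hQ₀Q.trans hQM
  have hmem : ∀ (H : Subgroup G) (x : X),
      x ∈ (H.subgroupOf M).map f ↔ ∃ a : ↥M, (a : G) ∈ H ∧ f a = x := by
    intro H x
    rw [Subgroup.mem_map]
    constructor
    · rintro ⟨a, ha, rfl⟩; exact ⟨a, Subgroup.mem_subgroupOf.mp ha, rfl⟩
    · rintro ⟨a, ha, rfl⟩; exact ⟨a, Subgroup.mem_subgroupOf.mpr ha, rfl⟩
  have hnormsub : ∀ (A B : Subgroup G), A ≤ normalizer (B : Set G) →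
      (A.subgroupOf M).map f ≤ normalizer (((B.subgroupOf M).map f : Subgroup X) : Set X) := by
    intro A B hAB
    refine (Subgroup.map_mono ?_).trans (Subgroup.le_normalizer_map f)
    intro a ha
    rw [mem_normalizer_iff]
    intro b
    rw [Subgroup.mem_subgroupOf, Subgroup.mem_subgroupOf]
    have h1 := mem_normalizer_iff.mp (hAB (Subgroup.mem_subgroupOf.mp ha)) (b : G)
    simpa using h1
  -- coprimality facts
  obtain ⟨n, hn⟩ := (IsPGroup.iff_card).mp hQ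
  have hQD : Q ⊓ D = ⊥ := by
    have hc : (Nat.card Q).Coprime (Nat.card D) := by
      rw [hn]; exact Nat.Coprime.pow_left n ((Nat.Prime.coprime_iff_not_dvd hq).mpr hDq)
    exact (Subgroup.disjoint_of_coprime_natCard hc).eq_bot
  have hQK : Q ⊓ K = ⊥ := by
    have hc : (Nat.card Q).Coprime (Nat.card K) := by
      rw [hn]; exact Nat.Coprime.pow_left n ((Nat.coprime_primes hq hKp).mpr (Ne.symm hKq))
    exact (Subgroup.disjoint_of_coprime_natCard hc).eq_bot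
  -- `d⁻¹ k ∈ Q₀` forces `k = 1`
  have hL2 : ∀ d ∈ D, ∀ k ∈ K, d⁻¹ * k ∈ Q₀ → k = 1 := by
    intro d hd k hk hc
    have hcomm : Commute d (d⁻¹ * k) := (mem_centralizer_iff.mp (hQ₀C hc)) d hd
    have hcq : (d⁻¹ * k) ^ Nat.card Q = 1 := by
      have h1 : (⟨d⁻¹ * k, hQ₀Q hc⟩ : ↥Q) ^ Nat.card Q = 1 := pow_card_eq_one'
      exact congrArg Subtype.val h1
    have hk' : k = d * (d⁻¹ * k) := by group
    have hkm : k ^ Nat.card Q = d ^ Nat.card Q := by
      conv_lhs => rw [hk']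
      rw [hcomm.mul_pow, hcq, mul_one]
    have hkm1 : k ^ Nat.card Q = 1 := by
      have h2 : k ^ Nat.card Q ∈ K ⊓ D := ⟨K.pow_mem hk _, by rw [hkm]; exact D.pow_mem hd _⟩
      rw [hKD0] at h2
      exact mem_bot.mp h2
    have hkK : k ^ Nat.card K = 1 := by
      have h1 : (⟨k, hk⟩ : ↥K) ^ Nat.card K = 1 := pow_card_eq_one'
      exact congrArg Subtype.val h1
    have hcop : (Nat.card Q).Coprime (Nat.card K) := by
      rw [hn]; exact Nat.Coprime.pow_left n ((Nat.coprime_primes hq hKp).mpr (Ne.symm hKq))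
    have ho1 : orderOf k ∣ Nat.card Q := orderOf_dvd_of_pow_eq_one hkm1
    have ho2 : orderOf k ∣ Nat.card K := orderOf_dvd_of_pow_eq_one hkK
    have ho : orderOf k = 1 := Nat.eq_one_of_dvd_coprimes hcop ho1 ho2
    exact orderOf_eq_one_iff.mp ho
  -- the three subgroups of `X`
  have hK1' : (D.subgroupOf M).map f ≠ ⊥ := by
    intro h
    obtain ⟨⟨d, hd⟩, hd1⟩ := (Subgroup.ne_bot_iff_exists_ne_one).mp hD1
    have h1 : f ⟨d, hDM hd⟩ ∈ (D.subgroupOf M).map f := (hmem D _).mpr ⟨⟨d, hDM hd⟩, hd, rfl⟩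
    rw [h, mem_bot, hf1] at h1
    have h2 : d ∈ Q ⊓ D := ⟨hQ₀Q h1, hd⟩
    rw [hQD, mem_bot] at h2
    exact hd1 (Subtype.ext h2)
  have hKne : K ≠ ⊥ := by
    rintro rfl
    rw [Subgroup.card_bot] at hKp
    exact Nat.not_prime_one hKp
  have hR1' : (K.subgroupOf M).map f ≠ ⊥ := by
    intro h
    obtain ⟨⟨k, hk⟩, hk1⟩ := (Subgroup.ne_bot_iff_exists_ne_one).mp hKne
    have h1 : f ⟨k, hKM hk⟩ ∈ (K.subgroupOf M).map f := (hmem K _).mpr ⟨⟨k, hKM hk⟩, hk, rfl⟩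
    rw [h, mem_bot, hf1] at h1
    have h2 : k ∈ Q ⊓ K := ⟨hQ₀Q h1, hk⟩
    rw [hQK, mem_bot] at h2
    exact hk1 (Subtype.ext h2)
  have hKR' : (D.subgroupOf M).map f ⊓ (K.subgroupOf M).map f = ⊥ := by
    rw [eq_bot_iff]
    rintro x ⟨hx1, hx2⟩
    obtain ⟨a, haD, rfl⟩ := (hmem D x).mp hx1
    obtain ⟨b, hbK, hba⟩ := (hmem K _).mp hx2
    have h1 : f (a⁻¹ * b) = 1 := by rw [map_mul, map_inv, hba, inv_mul_cancel]
    have h2 : ((a⁻¹ * b : ↥M) : G) ∈ Q₀ := (hf1 _).mp h1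
    have h3 : (b : G) = 1 := hL2 (a : G) haD (b : G) hbK (by simpa using h2)
    have h4 : b = 1 := Subtype.ext h3
    rw [mem_bot, ← hba, h4, map_one]
  have hRK' := hnormsub K D hKD
  have hcardK' : Nat.card ↥(K.subgroupOf M) = Nat.card K :=
    Nat.card_congr (Subgroup.subgroupOfEquivOfLe hKM).toEquiv
  have hcardD' : Nat.card ↥(D.subgroupOf M) = Nat.card D :=
    Nat.card_congr (Subgroup.subgroupOfEquivOfLe hDM).toEquiv
  have hcardR : Nat.card ↥((K.subgroupOf M).map f) = Nat.card K := by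
    have h1 : Nat.card ↥((K.subgroupOf M).map f) ∣ Nat.card K := by
      rw [← hcardK']; exact Subgroup.card_map_dvd _ f
    rcases (Nat.dvd_prime hKp).mp h1 with h | h
    · exact absurd (Subgroup.card_eq_one.mp h) hR1'
    · exact h
  have hfrob' : ∀ r ∈ (K.subgroupOf M).map f, r ≠ 1 →
      (D.subgroupOf M).map f ⊓ centralizer ({r} : Set X) = ⊥ := by
    intro r hr hr1
    obtain ⟨b, hbK, rfl⟩ := (hmem K r).mp hr
    have hb1 : (b : G) ≠ 1 := by
      intro h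
      apply hr1
      have h' : b = 1 := Subtype.ext h
      rw [h', map_one]
    rw [eq_bot_iff]
    rintro y ⟨hy1, hy2⟩
    obtain ⟨a, haD, rfl⟩ := (hmem D y).mp hy1
    have h1 : f b * f a = f a * f b := (mem_centralizer_iff.mp hy2) (f b) (Set.mem_singleton _)
    have h2 : f (b * a * b⁻¹ * a⁻¹) = 1 := by
      rw [map_mul, map_mul, map_mul, map_inv, map_inv, h1]; group
    have h3 : ((b * a * b⁻¹ * a⁻¹ : ↥M) : G) ∈ Q₀ := (hf1 _).mp h2
    have h3' : (b : G) * a * (b : G)⁻¹ * (a : G)⁻¹ ∈ Q₀ := by simpa using h3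
    have h4 : (b : G) * a * (b : G)⁻¹ * (a : G)⁻¹ ∈ D :=
      D.mul_mem ((mem_normalizer_iff.mp (hKD hbK) a).mp haD) (D.inv_mem haD)
    have h5 : (b : G) * a * (b : G)⁻¹ * (a : G)⁻¹ = 1 := by
      have h : (b : G) * a * (b : G)⁻¹ * (a : G)⁻¹ ∈ Q ⊓ D := ⟨hQ₀Q h3', h4⟩
      rw [hQD] at h
      exact mem_bot.mp h
    have h6 : (a : G) ∈ D ⊓ centralizer ({(b : G)} : Set G) := by
      refine ⟨haD, ?_⟩
      show (a : G) ∈ centralizer ({(b : G)} : Set G)
      rw [mem_centralizer_iff]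
      intro h hh
      rw [Set.mem_singleton_iff] at hh
      subst hh
      have e : (b : G) * a = ((b : G) * a * (b : G)⁻¹ * (a : G)⁻¹) * (a * b) := by group
      rw [e, h5, one_mul]
    rw [hfpf b hbK hb1, mem_bot] at h6
    have h7 : a = 1 := Subtype.ext h6
    rw [mem_bot, h7, map_one]
  have hsolv' : Group.IsSolvable ↥((D.subgroupOf M).map f ⊔ (K.subgroupOf M).map f) :=
    inferInstance
  have hodd' : Odd (Nat.card ↥((D.subgroupOf M).map f ⊔ (K.subgroupOf M).map f)) := by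
    have h1 : Nat.card ↥((D.subgroupOf M).map f ⊔ (K.subgroupOf M).map f) ∣ Nat.card X :=
      Subgroup.card_subgroup_dvd_card _
    have h2 : Nat.card X ∣ Nat.card ↥M := Subgroup.card_dvd_of_surjective f hsurj
    have h3 : Nat.card ↥M ∣ Nat.card G := Subgroup.card_subgroup_dvd_card M
    exact Odd.of_dvd_nat hodd (h1.trans (h2.trans h3))
  have hQ₀ne : ∃ x ∈ Q, x ∉ Q₀ := by
    by_contra hcon
    push_neg at hcon
    have heq : Q₀ = Q := le_antisymm hQ₀Q hcon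
    rw [heq] at hcard
    have hpos : 0 < Nat.card Q := Nat.card_pos
    have h1 : q ^ Nat.card K = 1 := by
      have : Nat.card Q * 1 = Nat.card Q * q ^ Nat.card K := by rw [mul_one]; exact hcard
      exact (Nat.eq_of_mul_eq_mul_left hpos this).symm
    have h2 : 1 < q ^ Nat.card K := Nat.one_lt_pow hKp.pos.ne' hq.one_lt
    omega
  have hM1' : (Q.subgroupOf M).map f ≠ ⊥ := by
    intro h
    obtain ⟨x, hx, hx0⟩ := hQ₀ne
    have h1 : f ⟨x, hQM hx⟩ ∈ (Q.subgroupOf M).map f := (hmem Q _).mpr ⟨⟨x, hQM hx⟩, hx, rfl⟩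
    rw [h, mem_bot, hf1] at h1
    exact hx0 h1
  have hMq : IsPGroup q ↥((Q.subgroupOf M).map f) := (hQ.comap_subtype).map f
  have hMn' : Group.IsNilpotent ↥((Q.subgroupOf M).map f) := hMq.isNilpotent
  have hKM' := hnormsub D Q (hDM.trans hQn)
  have hRM' := hnormsub K Q (hKM.trans hQn)
  have hcop' : (Nat.card ↥((D.subgroupOf M).map f ⊔ (K.subgroupOf M).map f)).Coprime
      (Nat.card ↥((Q.subgroupOf M).map f)) := by
    obtain ⟨m, hm⟩ := (IsPGroup.iff_card).mp hMq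
    rw [hm]
    apply Nat.Coprime.pow_right
    rw [Nat.coprime_comm, Nat.Prime.coprime_iff_not_dvd hq]
    intro hdvd
    have h1 : Nat.card ↥((K.subgroupOf M).map f ⊔ (D.subgroupOf M).map f) ∣
        Nat.card ↥((K.subgroupOf M).map f) * Nat.card ↥((D.subgroupOf M).map f) :=
      Cfsg.Agent.Helper22.card_sup_dvd_of_le_normalizer hRK'
    rw [sup_comm] at hdvd
    have h2 := hdvd.trans h1
    rcases (Nat.Prime.dvd_mul hq).mp h2 with h | h
    · rw [hcardR] at h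
      exact hKq ((Nat.prime_dvd_prime_iff_eq hq hKp).mp h).symm
    · have h3 : Nat.card ↥((D.subgroupOf M).map f) ∣ Nat.card D := by
        rw [← hcardD']; exact Subgroup.card_map_dvd _ f
      exact hDq (h.trans h3)
  have hQ₀q : IsPGroup q Q₀ := hQ.to_le hQ₀Q
  have hCK' : (Q.subgroupOf M).map f ⊓
      centralizer (((D.subgroupOf M).map f : Subgroup X) : Set X) = ⊥ := by
    rw [eq_bot_iff]
    rintro v ⟨hv1, hv2⟩
    obtain ⟨a, haQ, rfl⟩ := (hmem Q v).mp hv1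
    have hx : ∀ d ∈ D, (a : G)⁻¹ * d * a * d⁻¹ ∈ Q₀ := by
      intro d hd
      have h1 : f ⟨d, hDM hd⟩ * f a = f a * f ⟨d, hDM hd⟩ :=
        (mem_centralizer_iff.mp hv2) _ ((hmem D _).mpr ⟨⟨d, hDM hd⟩, hd, rfl⟩)
      have h2 : f (a⁻¹ * ⟨d, hDM hd⟩ * a * (⟨d, hDM hd⟩ : ↥M)⁻¹) = 1 := by
        rw [map_mul, map_mul, map_mul, map_inv, map_inv, mul_assoc ((f a)⁻¹), h1]; group
      have h3 := (hf1 _).mp h2
      simpa using h3
    have hcopDQ : (Nat.card D).Coprime (Nat.card Q₀) := by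
      obtain ⟨j, hj⟩ := (IsPGroup.iff_card).mp hQ₀q
      rw [hj]
      exact Nat.Coprime.pow_right j (Nat.Coprime.symm ((Nat.Prime.coprime_iff_not_dvd hq).mpr hDq))
    obtain ⟨c, hc, hac⟩ := Cfsg.Agent.Helper35.exists_fixed_in_coset (hDM.trans hQ₀n) hcopDQ
      (Or.inr (Cfsg.Agent.Helper35.isSolvable_of_le hQ₀M hsol)) (a : G) hx
    have hcQ : c ∈ Q := by
      have e : c = (a : G) * ((a : G)⁻¹ * c) := by group
      rw [e]
      exact Q.mul_mem haQ (hQ₀Q hac)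
    have hcQ₀ : c ∈ Q₀ := by rw [hQ₀]; exact ⟨hcQ, hc⟩
    have haQ₀ : (a : G) ∈ Q₀ := by
      have e : (a : G) = c * ((a : G)⁻¹ * c)⁻¹ := by group
      rw [e]
      exact Q₀.mul_mem hcQ₀ (Q₀.inv_mem hac)
    rw [mem_bot]
    exact (hf1 a).mpr haQ₀
  have hpr' : ∀ x ∈ (K.subgroupOf M).map f, x ≠ 1 →
      (Q.subgroupOf M).map f ⊓ centralizer ({x} : Set X) =
        (Q.subgroupOf M).map f ⊓
          centralizer (((K.subgroupOf M).map f : Subgroup X) : Set X) := by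
    intro x hx hx1
    apply le_antisymm
    · rintro v ⟨hv1, hv2⟩
      refine ⟨hv1, ?_⟩
      show v ∈ centralizer (((K.subgroupOf M).map f : Subgroup X) : Set X)
      rw [mem_centralizer_iff]
      intro y hy
      haveI : Fact (Nat.card K).Prime := ⟨hKp⟩
      have htop := zpowers_eq_top_of_prime_card (G := ↥((K.subgroupOf M).map f))
        (p := Nat.card K) hcardR (g := ⟨x, hx⟩) (by
          intro h; exact hx1 (congrArg Subtype.val h))
      have hy' : (⟨y, hy⟩ : ↥((K.subgroupOf M).map f)) ∈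
          zpowers (⟨x, hx⟩ : ↥((K.subgroupOf M).map f)) := by rw [htop]; exact mem_top _
      obtain ⟨m, hm⟩ := mem_zpowers_iff.mp hy'
      have hm' : x ^ m = y := by
        have := congrArg Subtype.val hm
        simpa using this
      have hc : Commute x v := (mem_centralizer_iff.mp hv2) x (Set.mem_singleton x)
      rw [← hm']
      exact (hc.zpow_left m).eq
    · exact inf_le_inf_left _ (centralizer_le (Set.singleton_subset_iff.mpr hx))
  obtain ⟨-, hcardM, hcyc⟩ := Cfsg.Agent.S1446.result ((D.subgroupOf M).map f)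
    ((K.subgroupOf M).map f) ((Q.subgroupOf M).map f) hK1' hR1' hKR' hRK' hfrob' hsolv' hodd'
    hM1' hMn' hKM' hRM' hcop' hCK' hpr'
  -- `|Q/Q₀| = q ^ |K|`
  have hker : f.ker = Q₀.subgroupOf M := by
    ext a
    rw [MonoidHom.mem_ker, hf1, Subgroup.mem_subgroupOf]
  have hidx : Nat.card ↥((Q.subgroupOf M).map f) = Q₀.relIndex Q := by
    rw [← Subgroup.relIndex_ker (Q.subgroupOf M) f, hker]
    have h1 := Subgroup.relIndex_comap Q₀ M.subtype (Q.subgroupOf M)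
    rw [Subgroup.map_subgroupOf_eq_of_le hQM] at h1
    exact h1
  have hrel : Nat.card Q = Nat.card Q₀ * Q₀.relIndex Q := by
    have h1 := Subgroup.relIndex_mul_relIndex (⊥ : Subgroup G) Q₀ Q bot_le hQ₀Q
    rw [Subgroup.relIndex_bot_left, Subgroup.relIndex_bot_left] at h1
    exact h1.symm
  have hidx2 : Q₀.relIndex Q = q ^ Nat.card K := by
    have hpos : 0 < Nat.card Q₀ := Nat.card_pos
    exact Nat.eq_of_mul_eq_mul_left hpos (hrel.symm.trans hcard)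
  have hc : Nat.card ↥((Q.subgroupOf M).map f ⊓
      centralizer (((K.subgroupOf M).map f : Subgroup X) : Set X)) = q := by
    rw [hidx, hidx2, hcardR] at hcardM
    exact (Nat.pow_left_injective hKp.pos.ne' hcardM).symm
  have hcyc' : IsCyclic ↥((Q.subgroupOf M).map f ⊓
      centralizer (((K.subgroupOf M).map f : Subgroup X) : Set X)) :=
    isCyclic_of_prime_card hc
  have hcent := hcyc hcyc'
  -- conclusion
  have hcomm : ⁅D, D⁆ ≤ ((centralizer (((Q.subgroupOf M).map f : Subgroup X) : Set X)).comap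
      f).map M.subtype := by
    rw [Subgroup.commutator_le]
    intro a ha b hb
    refine ⟨⁅(⟨a, hDM ha⟩ : ↥M), (⟨b, hDM hb⟩ : ↥M)⁆, ?_, rfl⟩
    show f ⁅(⟨a, hDM ha⟩ : ↥M), (⟨b, hDM hb⟩ : ↥M)⁆ ∈
      centralizer (((Q.subgroupOf M).map f : Subgroup X) : Set X)
    rw [map_commutatorElement]
    exact hcent (Subgroup.commutator_mem_commutator
      ((hmem D _).mpr ⟨⟨a, hDM ha⟩, ha, rfl⟩) ((hmem D _).mpr ⟨⟨b, hDM hb⟩, hb, rfl⟩))
  intro d hd x hx
  obtain ⟨d', hd', rfl⟩ := hcomm hd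
  have hd'' : f d' ∈ centralizer (((Q.subgroupOf M).map f : Subgroup X) : Set X) := hd'
  have h1 : f ⟨x, hQM hx⟩ * f d' = f d' * f ⟨x, hQM hx⟩ :=
    (mem_centralizer_iff.mp hd'') _ ((hmem Q _).mpr ⟨⟨x, hQM hx⟩, hx, rfl⟩)
  have h2 : f (d' * ⟨x, hQM hx⟩ * d'⁻¹ * (⟨x, hQM hx⟩ : ↥M)⁻¹) = 1 := by
    rw [map_mul, map_mul, map_mul, map_inv, map_inv, ← h1]; group
  have h3 := (hf1 _).mp h2
  simpa using h3

/-- FROB. `D'` centralizes `Q/Q₀`. -/
theorem bg56_frob_section {M Q Q₀ D K : Subgroup G} {q : ℕ} (hq : q.Prime)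
    (hodd : Odd (Nat.card G)) (hsol : Group.IsSolvable ↥M)
    (hQM : Q ≤ M) (hDM : D ≤ M) (hKM : K ≤ M)
    (hQn : M ≤ normalizer (Q : Set G)) (hQ₀n : M ≤ normalizer (Q₀ : Set G))
    (hQ₀ : Q₀ = Q ⊓ centralizer (D : Set G)) (hQ : IsPGroup q Q)
    (hDq : ¬ q ∣ Nat.card D) (hD1 : D ≠ ⊥) (hKD : K ≤ normalizer (D : Set G))
    (hKp : (Nat.card K).Prime) (hKq : Nat.card K ≠ q) (hKD0 : K ⊓ D = ⊥)
    (hfpf : ∀ r ∈ K, r ≠ 1 → D ⊓ centralizer ({r} : Set G) = ⊥)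
    (hcard : Nat.card Q = Nat.card Q₀ * q ^ Nat.card K) :
    ∀ d ∈ ⁅D, D⁆, ∀ x ∈ Q, d * x * d⁻¹ * x⁻¹ ∈ Q₀ := by
  haveI hN : (Q₀.subgroupOf M).Normal := Subgroup.normal_subgroupOf_of_le_normalizer hQ₀n
  refine bg56_frob_aux hq hodd hsol hQM hDM hKM hQn hQ₀n hQ₀ hQ hDq hD1 hKD hKp hKq hKD0 hfpf
    hcard (QuotientGroup.mk' (Q₀.subgroupOf M)) (QuotientGroup.mk'_surjective _) ?_
  intro a
  rw [QuotientGroup.mk'_apply, QuotientGroup.eq_one_iff, Subgroup.mem_subgroupOf]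

end Cfsg.Agent.Helper62
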