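import Cfsg.Prelude.Def_OddOrderLocal

/-!
# Pure group theory pieces for S1372 (B&G Theorem 14.2(b),(c)), part A
-/

set_option autoImplicit false
open Cfsg Subgroup

namespace Cfsg.Agent.Helper62

universe u

variable {G : Type u} [Group G] [Finite G]

/-- P3: from `C_M(k) = K × C_S(K)` to `C_S(k) = C_S(K)`. -/
theorem bg72_cent_eq {K S M : Subgroup G} (hKS : K ⊓ S = ⊥) (hSM : S ≤ M) {k : G} (hk : k ∈ K)
    (h : M ⊓ centralizer ({k} : Set G) = K ⊔ (S ⊓ centralizer (K : Set G))) :
    S ⊓ centralizer ({k} : Set G) = S ⊓ centralizer (K : Set G) := by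
  apply le_antisymm
  · rintro x ⟨hxS, hxk⟩
    have hx : x ∈ K ⊔ (S ⊓ centralizer (K : Set G)) := by
      rw [← h]; exact ⟨hSM hxS, hxk⟩
    have hnorm : S ⊓ centralizer (K : Set G) ≤ normalizer (K : Set G) :=
      inf_le_right.trans (Subgroup.centralizer_le_normalizer _)
    have hx' : x ∈ ((K ⊔ (S ⊓ centralizer (K : Set G)) : Subgroup G) : Set G) := hx
    rw [Subgroup.coe_mul_of_right_le_normalizer_left K _ hnorm, Set.mem_mul] at hx'
    obtain ⟨a, ha, b, hb, rfl⟩ := hx'
    have haS : a ∈ S := by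
      have e : a = a * b * b⁻¹ := by group
      rw [e]; exact S.mul_mem hxS (S.inv_mem hb.1)
    have ha1 : a = 1 := by
      have : a ∈ K ⊓ S := ⟨ha, haS⟩
      rwa [hKS, Subgroup.mem_bot] at this
    rw [ha1, one_mul]
    exact hb
  · rintro x ⟨hxS, hxK⟩
    refine ⟨hxS, ?_⟩
    have hxK' : x ∈ centralizer (K : Set G) := hxK
    show x ∈ centralizer ({k} : Set G)
    rw [Subgroup.mem_centralizer_iff] at hxK' ⊢
    intro z hz
    rw [Set.mem_singleton_iff] at hz
    subst hz
    exact hxK' z hk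

/-- P8: a subgroup is a TI-subset as soon as the TI-condition holds for its elements of prime
order. -/
theorem bg72_ti_of_prime {F : Subgroup G}
    (h : ∀ g : G, g ∉ normalizer (F : Set G) → ∀ y ∈ F, (orderOf y).Prime →
      g * y * g⁻¹ ∈ F → False) :
    Cfsg.IsTISubset (F : Set G) := by
  intro g hg x hx hgx
  by_contra hx1
  have hn1 : orderOf x ≠ 1 := fun e => hx1 (orderOf_eq_one_iff.mp e)
  obtain ⟨p, hp, m, hm⟩ := Nat.exists_prime_and_dvd hn1
  have hpos : 0 < orderOf x := orderOf_pos x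
  have hm0 : m ≠ 0 := by
    rintro rfl
    rw [mul_zero] at hm
    omega
  have ho : orderOf (x ^ m) = p := by
    rw [orderOf_pow' x hm0, hm, Nat.gcd_mul_left_left, Nat.mul_div_cancel _ (Nat.pos_of_ne_zero hm0)]
  refine h g hg (x ^ m) (F.pow_mem hx m) (ho ▸ hp) ?_
  have e : g * x ^ m * g⁻¹ = (g * x * g⁻¹) ^ m := (conj_pow (a := g) (b := x) (i := m)).symm
  rw [e]
  exact F.pow_mem hgx m

/-- P9: in a simple group, a nontrivial subgroup `F` normal in a maximal subgroup `M` has
normalizer `M`. -/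
theorem bg72_normalizer_eq [IsSimpleGroup G] {M F : Subgroup G} (hM : IsCoatom M) (hF : F ≠ ⊥)
    (hFM : F ≤ M) (hn : M ≤ normalizer (F : Set G)) : normalizer (F : Set G) = M := by
  rcases eq_or_lt_of_le hn with h | h
  · exact h.symm
  · have htop : normalizer (F : Set G) = ⊤ := hM.2 _ h
    have hFn : F.Normal := Subgroup.normalizer_eq_top_iff.mp htop
    rcases hFn.eq_bot_or_eq_top with h1 | h1
    · exact absurd h1 hF
    · exact absurd (top_le_iff.mp (h1 ▸ hFM)) hM.1

/-- P10: if `C(y) ≤ M` and `M` is the only maximal subgroup containing `C(g y g⁻¹)`, then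
`g ∈ M` (`G` simple, `M` maximal). -/
theorem bg72_conj_uniq [IsSimpleGroup G] {M : Subgroup G} (hM : IsCoatom M) {y g : G}
    (h1 : centralizer ({y} : Set G) ≤ M)
    (h2 : ∀ L : Subgroup G, IsCoatom L → centralizer ({g * y * g⁻¹} : Set G) ≤ L → L = M) :
    g ∈ M := by
  have hLco : IsCoatom (M.map (MulAut.conj g).toMonoidHom) :=
    ((MulEquiv.mapSubgroup (MulAut.conj g)).isCoatom_iff M).mpr hM
  have hle : centralizer ({g * y * g⁻¹} : Set G) ≤ M.map (MulAut.conj g).toMonoidHom := by
    intro c hc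
    rw [Subgroup.mem_centralizer_iff] at hc
    have hc' := hc _ (Set.mem_singleton _)
    have hcM : g⁻¹ * c * g ∈ M := by
      apply h1
      rw [Subgroup.mem_centralizer_iff]
      intro z hz
      rw [Set.mem_singleton_iff] at hz
      subst hz
      calc z * (g⁻¹ * c * g) = g⁻¹ * ((g * z * g⁻¹) * c) * g := by group
        _ = g⁻¹ * (c * (g * z * g⁻¹)) * g := by rw [hc']
        _ = g⁻¹ * c * g * z := by group
    refine ⟨g⁻¹ * c * g, hcM, ?_⟩
    simp [MulAut.conj_apply]
    group
  have hLM := h2 _ hLco hle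
  have hgN : g ∈ normalizer (M : Set G) := by
    rw [Subgroup.mem_normalizer_iff]
    intro x
    constructor
    · intro hx
      rw [← hLM]
      exact ⟨x, hx, rfl⟩
    · intro hx
      rw [← hLM] at hx
      obtain ⟨m, hm, hmx⟩ := hx
      have : m = x := by
        have h3 : g * m * g⁻¹ = g * x * g⁻¹ := hmx
        simpa using h3
      rw [← this]; exact hm
  rcases eq_or_lt_of_le (Subgroup.le_normalizer (H := M)) with h | h
  · rw [h]; exact hgN
  · exfalso
    have htop : normalizer (M : Set G) = ⊤ := hM.2 _ h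
    have hMn : M.Normal := Subgroup.normalizer_eq_top_iff.mp htop
    rcases hMn.eq_bot_or_eq_top with h3 | h3
    · have hy : y ∈ M := h1 (by
        rw [Subgroup.mem_centralizer_iff]
        intro z hz
        rw [Set.mem_singleton_iff] at hz
        subst hz; rfl)
      rw [h3, Subgroup.mem_bot] at hy
      apply hM.1
      rw [eq_top_iff]
      intro c _
      apply h1
      rw [Subgroup.mem_centralizer_iff]
      intro z hz
      rw [Set.mem_singleton_iff] at hz
      subst hz
      rw [hy, one_mul, mul_one]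
    · exact hM.1 h3

/-- P12: an element of `M` of order dividing `p` lies in a Sylow `p`-subgroup of `M`. -/
theorem bg72_exists_sylow_mem {M : Subgroup G} {p : ℕ} [Fact p.Prime] {y : G} (hyM : y ∈ M)
    (hyp : y ^ p = 1) : ∃ P : Sylow p M, y ∈ (P : Subgroup M).map M.subtype := by
  have hz : IsPGroup p (zpowers (⟨y, hyM⟩ : ↥M)) := by
    rintro ⟨w, hw⟩
    obtain ⟨t, rfl⟩ := Subgroup.mem_zpowers_iff.mp hw
    refine ⟨1, Subtype.ext ?_⟩
    have hy' : (⟨y, hyM⟩ : ↥M) ^ p = 1 := Subtype.ext (by simpa using hyp)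
    simp only [Subgroup.coe_pow, Subgroup.coe_one, pow_one]
    rw [← zpow_natCast, ← zpow_mul, mul_comm, zpow_mul, zpow_natCast, hy', one_zpow]
  obtain ⟨P, hP⟩ := hz.exists_le_sylow
  exact ⟨P, ⟨y, hyM⟩, hP (Subgroup.mem_zpowers _), rfl⟩

end Cfsg.Agent.Helper62
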