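import Cfsg.Agent.Helper62.BG72A
import Cfsg.Agent.Helper62.BG72B
import Cfsg.Agent.Helper51.Replace

/-!
# Pure group theory pieces for S1372 (B&G Theorem 14.2(b),(c)), part D
-/

set_option autoImplicit false
open Cfsg Subgroup

namespace Cfsg.Agent.Helper62

universe u

variable {G : Type u} [Group G] [Finite G]

/-- P5: if `p ∤ |M : K|`, every element of `M` of order dividing `p` is `M`-conjugate into `K`. -/
theorem bg72_conj_mem {K M : Subgroup G} (_hKM : K ≤ M) {p : ℕ} [Fact p.Prime]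
    (hidx : ¬ p ∣ K.relIndex M) {y : G} (hyM : y ∈ M) (hyp : y ^ p = 1) :
    ∃ m ∈ M, m * y * m⁻¹ ∈ K := by
  have hy' : (⟨y, hyM⟩ : ↥M) ^ p = 1 := Subtype.ext (by simpa using hyp)
  have hz : IsPGroup p (zpowers (⟨y, hyM⟩ : ↥M)) := by
    rintro ⟨w, hw⟩
    obtain ⟨t, rfl⟩ := Subgroup.mem_zpowers_iff.mp hw
    refine ⟨1, Subtype.ext ?_⟩
    simp only [Subgroup.coe_pow, Subgroup.coe_one, pow_one]
    rw [← zpow_natCast, ← zpow_mul, mul_comm, zpow_mul, zpow_natCast, hy', one_zpow]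
  have hcard : ¬ p ∣ Nat.card (↥M ⧸ K.subgroupOf M) := by
    rw [← Subgroup.index_eq_card]
    exact hidx
  obtain ⟨q, hq⟩ := hz.nonempty_fixed_point_of_prime_not_dvd_card (↥M ⧸ K.subgroupOf M) hcard
  obtain ⟨m, rfl⟩ := QuotientGroup.mk_surjective q
  have h1 := hq ⟨⟨y, hyM⟩, Subgroup.mem_zpowers _⟩
  have h2 : ((⟨y, hyM⟩ * m : ↥M) : ↥M ⧸ K.subgroupOf M) = (m : ↥M ⧸ K.subgroupOf M) := h1
  rw [QuotientGroup.eq, Subgroup.mem_subgroupOf] at h2
  refine ⟨(m : G)⁻¹, M.inv_mem m.2, ?_⟩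
  have h3 : ((m : G)⁻¹ * y * (m : G)⁻¹⁻¹)⁻¹ ∈ K := by
    have e : ((m : G)⁻¹ * y * (m : G)⁻¹⁻¹)⁻¹ = (((⟨y, hyM⟩ * m : ↥M)⁻¹ * m : ↥M) : G) := by
      simp
      group
    rw [e]; exact h2
  exact (K.inv_mem_iff).mp h3

/-- P2: if `p` divides neither `|K|` nor `|S|` then a complement `U` of `K ⊔ S` in `M` contains
a Sylow `p`-subgroup of `M`. -/
theorem bg72_exists_sylow_le {U K S M : Subgroup G} (hc : Cfsg.IsComplIn U (K ⊔ S) M)
    (hKS : K ≤ normalizer (S : Set G)) {p : ℕ} [Fact p.Prime] (hpK : ¬ p ∣ Nat.card K)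
    (hpS : ¬ p ∣ Nat.card S) : ∃ P : Sylow p M, (P : Subgroup M).map M.subtype ≤ U := by
  have hp : p.Prime := Fact.out
  have hcard := bg72_card_compl hc
  have hUM : U ≤ M := hc.1
  have h1 : Nat.card U * U.relIndex M = Nat.card M := by
    have := Subgroup.relIndex_mul_relIndex (⊥ : Subgroup G) U M bot_le hUM
    rwa [Subgroup.relIndex_bot_left, Subgroup.relIndex_bot_left] at this
  have h2 : U.relIndex M = Nat.card ↥(K ⊔ S) := by
    have hpos : 0 < Nat.card U := Nat.card_pos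
    have : Nat.card U * U.relIndex M = Nat.card U * Nat.card ↥(K ⊔ S) := by
      rw [h1, hcard]
    exact Nat.eq_of_mul_eq_mul_left hpos this
  have h3 : Nat.card ↥(K ⊔ S) ∣ Nat.card K * Nat.card S :=
    Dvd.intro _ (Cfsg.Agent.Helper51.card_sup_mul_card_inf_of_le_normalizer K S hKS)
  have hidx : ¬ p ∣ Nat.card (↥M ⧸ U.subgroupOf M) := by
    rw [← Subgroup.index_eq_card]
    intro h
    have h4 : p ∣ U.relIndex M := h
    rw [h2] at h4
    rcases (Nat.Prime.dvd_mul hp).mp (h4.trans h3) with h5 | h5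
    · exact hpK h5
    · exact hpS h5
  obtain ⟨P1⟩ : Nonempty (Sylow p ↥M) := inferInstance
  obtain ⟨q, hq⟩ := P1.2.nonempty_fixed_point_of_prime_not_dvd_card (↥M ⧸ U.subgroupOf M) hidx
  obtain ⟨m, rfl⟩ := QuotientGroup.mk_surjective q
  refine ⟨m⁻¹ • P1, ?_⟩
  rintro _ ⟨x, hx, rfl⟩
  have hx' : x ∈ (m⁻¹ • P1 : Sylow p ↥M) := hx
  rw [Sylow.smul_def] at hx'
  obtain ⟨s, hs, rfl⟩ := hx'
  have h6 := hq ⟨s, hs⟩
  have h7 : ((s * m : ↥M) : ↥M ⧸ U.subgroupOf M) = (m : ↥M ⧸ U.subgroupOf M) := h6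
  rw [QuotientGroup.eq, Subgroup.mem_subgroupOf] at h7
  have h8 : ((m : G)⁻¹ * s * m)⁻¹ ∈ U := by
    have e : ((m : G)⁻¹ * s * m)⁻¹ = (((s * m : ↥M)⁻¹ * m : ↥M) : G) := by
      simp
      group
    rw [e]; exact h7
  have h9 := (U.inv_mem_iff).mp h8
  simpa [MulAut.smul_def, MulAut.conj_apply] using h9

end Cfsg.Agent.Helper62
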