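import Mathlib

/-!
# The Baer trick

For a group `H` of class at most two and odd exponent `2k+1`, the operation
`x + y = x * y * ⁅x, y⁆ ^ k` makes `H` an abelian group with the same powers and the same
automorphisms.
-/

set_option autoImplicit false

namespace Cfsg.Agent.Helper62

open scoped commutatorElement

section Baer
variable {H : Type*} [Group H]

theorem baer_comm_mul_right (hcc : ∀ x y g : H, g * ⁅x, y⁆ = ⁅x, y⁆ * g) (y x x' : H) :
    ⁅y, x * x'⁆ = ⁅y, x⁆ * ⁅y, x'⁆ := by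
  have h1 : ⁅y, x * x'⁆ = ⁅y, x⁆ * (x * ⁅y, x'⁆) * x⁻¹ := by
    simp only [commutatorElement_def]; group
  rw [h1, hcc y x' x]
  group

theorem baer_comm_mul_left (hcc : ∀ x y g : H, g * ⁅x, y⁆ = ⁅x, y⁆ * g) (y y' x : H) :
    ⁅y * y', x⁆ = ⁅y, x⁆ * ⁅y', x⁆ := by
  have h1 : ⁅y * y', x⁆ = (y * ⁅y', x⁆) * x * y⁻¹ * x⁻¹ := by
    simp only [commutatorElement_def]; group
  have h2 : ⁅y', x⁆ * y * x * y⁻¹ * x⁻¹ = ⁅y', x⁆ * ⁅y, x⁆ := by
    simp only [commutatorElement_def]; group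
  rw [h1, hcc y' x y, h2]
  exact hcc y x ⁅y', x⁆

theorem baer_comm_central_left (c z : H) (hc : ∀ g : H, g * c = c * g) : ⁅c, z⁆ = 1 := by
  rw [commutatorElement_eq_one_iff_commute]
  exact (hc z).symm

theorem baer_comm_central_right (c z : H) (hc : ∀ g : H, g * c = c * g) : ⁅z, c⁆ = 1 := by
  rw [commutatorElement_eq_one_iff_commute]
  exact hc z

theorem baer_pow_central (hcc : ∀ x y g : H, g * ⁅x, y⁆ = ⁅x, y⁆ * g) (k : ℕ) (x y g : H) :
    g * ⁅x, y⁆ ^ k = ⁅x, y⁆ ^ k * g :=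
  (Commute.pow_right (hcc x y g) k).eq

/-- the Baer sum -/
def baerAdd (k : ℕ) (x y : H) : H := x * y * ⁅x, y⁆ ^ k

theorem baerAdd_assoc (hcc : ∀ x y g : H, g * ⁅x, y⁆ = ⁅x, y⁆ * g) (k : ℕ) (x y z : H) :
    baerAdd k (baerAdd k x y) z = baerAdd k x (baerAdd k y z) := by
  unfold baerAdd
  have ha := baer_pow_central hcc k x y
  have hb := baer_pow_central hcc k x z
  have hc := baer_pow_central hcc k y z
  have e1 : ⁅x * y * ⁅x, y⁆ ^ k, z⁆ = ⁅x, z⁆ * ⁅y, z⁆ := by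
    rw [baer_comm_mul_left hcc, baer_comm_mul_left hcc, baer_comm_central_left _ z ha, mul_one]
  have e2 : ⁅x, y * z * ⁅y, z⁆ ^ k⁆ = ⁅x, y⁆ * ⁅x, z⁆ := by
    rw [baer_comm_mul_right hcc, baer_comm_mul_right hcc, baer_comm_central_right _ x hc, mul_one]
  rw [e1, e2, (Commute.mul_pow (hcc y z ⁅x, z⁆) k), (Commute.mul_pow (hcc x z ⁅x, y⁆) k)]
  set a := ⁅x, y⁆ ^ k
  set b := ⁅x, z⁆ ^ k
  set c := ⁅y, z⁆ ^ k
  have h1 : a * (z * (b * c)) = z * (c * (a * b)) := by
    calc a * (z * (b * c)) = z * (a * (b * c)) := by rw [← mul_assoc, ← ha z, mul_assoc]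
      _ = z * (c * (a * b)) := by rw [← hc (a * b), mul_assoc]
  simp only [mul_assoc]
  rw [h1]

theorem baerAdd_comm (hcc : ∀ x y g : H, g * ⁅x, y⁆ = ⁅x, y⁆ * g) (k : ℕ)
    (hexp : ∀ x : H, x ^ (2 * k + 1) = 1) (x y : H) :
    baerAdd k x y = baerAdd k y x := by
  unfold baerAdd
  have h1 : x * y = y * x * ⁅x, y⁆ := by
    rw [mul_assoc, hcc x y x, ← mul_assoc, hcc x y y]
    simp only [commutatorElement_def]; group
  have h2 : ⁅y, x⁆ = ⁅x, y⁆⁻¹ := (commutatorElement_inv x y).symm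
  rw [h1, h2, mul_assoc, inv_pow]
  congr 1
  have h3 : ⁅x, y⁆ * ⁅x, y⁆ ^ k * ⁅x, y⁆ ^ k = 1 := by
    rw [← pow_succ', ← pow_add]
    have := hexp ⁅x, y⁆
    rwa [show 2 * k + 1 = k + 1 + k by ring] at this
  exact eq_inv_of_mul_eq_one_left h3

/-- the Baer abelian group structure on a group of class two and odd exponent -/
@[reducible] def baerAddCommGroup (k : ℕ) (hcc : ∀ x y g : H, g * ⁅x, y⁆ = ⁅x, y⁆ * g)
    (hexp : ∀ x : H, x ^ (2 * k + 1) = 1) : AddCommGroup H :=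
  letI : Add H := ⟨baerAdd k⟩
  letI : Zero H := ⟨1⟩
  letI : Neg H := ⟨fun x => x⁻¹⟩
  { AddGroup.ofLeftAxioms (G := H) (baerAdd_assoc hcc k)
      (fun x => by
        show baerAdd k 1 x = x
        unfold baerAdd
        simp)
      (fun x => by
        show baerAdd k x⁻¹ x = 1
        unfold baerAdd
        have : ⁅x⁻¹, x⁆ = 1 := by simp [commutatorElement_def]
        rw [this]; simp) with
    add_comm := baerAdd_comm hcc k hexp }

theorem baerAddCommGroup_add (k : ℕ) (hcc : ∀ x y g : H, g * ⁅x, y⁆ = ⁅x, y⁆ * g)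
    (hexp : ∀ x : H, x ^ (2 * k + 1) = 1) (x y : H) :
    (letI := baerAddCommGroup k hcc hexp; x + y) = x * y * ⁅x, y⁆ ^ k := rfl

theorem baer_zero [AddCommGroup H] (k : ℕ) (hadd : ∀ x y : H, x + y = x * y * ⁅x, y⁆ ^ k) :
    (0 : H) = 1 := by
  have h := hadd 0 0
  rw [add_zero] at h
  have h2 : ⁅(0 : H), (0 : H)⁆ = 1 := by simp [commutatorElement_def]
  rw [h2, one_pow, mul_one] at h
  have h3 : (0 : H) * 1 = 0 * 0 := by rw [mul_one]; exact h
  exact (mul_left_cancel h3).symm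

theorem baer_nsmul_eq_pow [AddCommGroup H] (k : ℕ)
    (hadd : ∀ x y : H, x + y = x * y * ⁅x, y⁆ ^ k) (n : ℕ) (x : H) : n • x = x ^ n := by
  induction n with
  | zero => rw [zero_nsmul, pow_zero]; exact baer_zero k hadd
  | succ n ih =>
    rw [succ_nsmul, ih, hadd, pow_succ]
    have : ⁅x ^ n, x⁆ = 1 := by
      rw [commutatorElement_eq_one_iff_commute]
      exact (Commute.refl x).pow_left n
    rw [this, one_pow, mul_one]

/-- a group endomorphism is additive for the Baer structure -/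
def baerHom [AddCommGroup H] (k : ℕ) (hadd : ∀ x y : H, x + y = x * y * ⁅x, y⁆ ^ k)
    (θ : H →* H) : H →+ H where
  toFun := θ
  map_zero' := by rw [baer_zero k hadd]; exact map_one θ
  map_add' x y := by
    rw [hadd, hadd, map_mul, map_mul, map_pow, map_commutatorElement]

theorem baerHom_apply [AddCommGroup H] (k : ℕ) (hadd : ∀ x y : H, x + y = x * y * ⁅x, y⁆ ^ k)
    (θ : H →* H) (x : H) : baerHom k hadd θ x = θ x := rfl

/-- conjugation by a normalizing element, as an endomorphism of a subgroup -/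
def conjHomOn {X : Type*} [Group X] (U : Subgroup X) (g : X)
    (hg : g ∈ Subgroup.normalizer (U : Set X)) : ↥U →* ↥U where
  toFun u := ⟨g * u * g⁻¹, (Subgroup.mem_normalizer_iff.1 hg u).1 u.2⟩
  map_one' := Subtype.ext (by simp)
  map_mul' a b := Subtype.ext (by simp [mul_assoc])

theorem conjHomOn_coe {X : Type*} [Group X] (U : Subgroup X) (g : X)
    (hg : g ∈ Subgroup.normalizer (U : Set X)) (u : ↥U) :
    ((conjHomOn U g hg u : ↥U) : X) = g * u * g⁻¹ := rfl

/-- conjugation by a normalizing element, as a permutation of a subgroup -/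
def conjEquivOn {X : Type*} [Group X] (U : Subgroup X) (g : X)
    (hg : g ∈ Subgroup.normalizer (U : Set X)) : ↥U ≃ ↥U where
  toFun u := ⟨g * u * g⁻¹, (Subgroup.mem_normalizer_iff.1 hg u).1 u.2⟩
  invFun u := ⟨g⁻¹ * u * g, by
    apply (Subgroup.mem_normalizer_iff.1 hg (g⁻¹ * u * g)).2
    have : g * (g⁻¹ * (u : X) * g) * g⁻¹ = u := by group
    rw [this]; exact u.2⟩
  left_inv u := Subtype.ext (by simp [mul_assoc])
  right_inv u := Subtype.ext (by simp [mul_assoc])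

theorem conjEquivOn_coe {X : Type*} [Group X] (U : Subgroup X) (g : X)
    (hg : g ∈ Subgroup.normalizer (U : Set X)) (u : ↥U) :
    ((conjEquivOn U g hg u : ↥U) : X) = g * u * g⁻¹ := rfl

end Baer

end Cfsg.Agent.Helper62
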