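import Mathlib

/-!
Helper library of seat helper62: linear algebra of "transvection pairs".

A group `Γ` acts (through a function `ρ`) by additive maps on an additive commutative group `M`
of prime exponent `p`.  Two elements `a`, `c` act as transvections with centres `v`, `w`
(`ρ a y - y ∈ ℕ v`, `ρ c y - y ∈ ℕ w`, `ρ a v = v`, `ρ c w = w`).  Then either one of them fixes
the centre of the other (and `⟨a, c⟩` acts unipotently), or the group they generate contains an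
element acting as `-1` on `⟨v, w⟩` and commuting with `a` in its action on `M`.
-/

set_option autoImplicit false

namespace Cfsg.Agent.Helper62

section CycLin

variable {Γ M : Type*} [Group Γ] [AddCommGroup M]

/-- An action of `Γ` on `M` by additive maps, given as a bare function. -/
structure CycAct (ρ : Γ → M → M) : Prop where
  one : ∀ y, ρ 1 y = y
  mul : ∀ g h y, ρ (g * h) y = ρ g (ρ h y)
  add : ∀ g x y, ρ g (x + y) = ρ g x + ρ g y

theorem cyc_nsmul_eq_zero {p : ℕ} (hM : ∀ y : M, p • y = 0) {N : ℕ} (h : p ∣ N) (y : M) :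
    N • y = 0 := by
  obtain ⟨q, rfl⟩ := h
  rw [mul_nsmul, hM, nsmul_zero]

theorem cyc_nsmul_eq_self {p : ℕ} (hM : ∀ y : M, p • y = 0) {N : ℕ} (h : N % p = 1) (y : M) :
    N • y = y := by
  have h1 : N = p * (N / p) + 1 := by
    have := Nat.div_add_mod N p
    rw [h] at this
    exact this.symm
  rw [h1, add_nsmul, one_nsmul, cyc_nsmul_eq_zero hM (Dvd.intro _ rfl), zero_add]

namespace CycAct

variable {ρ : Γ → M → M} (hρ : CycAct ρ)
include hρ

theorem zero (g : Γ) : ρ g 0 = 0 := by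
  have := hρ.add g 0 0
  simpa using this

theorem nsmul (g : Γ) (n : ℕ) (y : M) : ρ g (n • y) = n • ρ g y := by
  induction n with
  | zero => simp [hρ.zero]
  | succ n ih => rw [succ_nsmul, hρ.add, ih, succ_nsmul]

theorem neg (g : Γ) (y : M) : ρ g (-y) = -ρ g y := by
  have := hρ.add g y (-y)
  rw [add_neg_cancel, hρ.zero] at this
  exact (neg_eq_of_add_eq_zero_right this.symm).symm

theorem sub (g : Γ) (x y : M) : ρ g (x - y) = ρ g x - ρ g y := by
  rw [sub_eq_add_neg, hρ.add, hρ.neg, sub_eq_add_neg]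

theorem inv_apply (g : Γ) (y : M) : ρ g⁻¹ (ρ g y) = y := by
  rw [← hρ.mul, inv_mul_cancel, hρ.one]

theorem apply_inv (g : Γ) (y : M) : ρ g (ρ g⁻¹ y) = y := by
  rw [← hρ.mul, mul_inv_cancel, hρ.one]

theorem pow_fixed (g : Γ) (y : M) (h : ρ g y = y) (n : ℕ) : ρ (g ^ n) y = y := by
  induction n with
  | zero => rw [pow_zero, hρ.one]
  | succ n ih => rw [pow_succ, hρ.mul, h, ih]

/-- Stability: a `p'`-power-trivial element moving `y` by a fixed vector `z` has `z = 0`. -/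
theorem stab {p m : ℕ} (hp : p.Prime) (hM : ∀ y : M, p • y = 0) (hmp : m.Coprime p) {r : Γ}
    {y z : M} (h : ρ r y = y + z) (hz : ρ r z = z) (hm : ρ (r ^ m) y = y) : z = 0 := by
  have key : ∀ k : ℕ, ρ (r ^ k) y = y + k • z := by
    intro k
    induction k with
    | zero => simp [hρ.one]
    | succ k ih =>
      rw [pow_succ', hρ.mul, ih, hρ.add, hρ.nsmul, h, hz, succ_nsmul]; abel
  have h1 : m • z = 0 := by
    have := key m
    rw [hm] at this
    simpa using this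
  obtain ⟨m', -, hm'⟩ := Nat.exists_mul_mod_eq_one_of_coprime hmp hp.one_lt
  have h2 := cyc_nsmul_eq_self hM hm' z
  rw [mul_nsmul, h1, nsmul_zero] at h2
  exact h2.symm

/-- Case (i): if `a` fixes `w` or `c` fixes `v`, an element `a⁻¹ c` that is trivial to the power
`m` (prime to `p`) acts trivially. -/
theorem central_of_fixed {p m : ℕ} (hp : p.Prime) (hM : ∀ y : M, p • y = 0) (hmp : m.Coprime p)
    (a c : Γ) (v w : M) (hav : ρ a v = v) (hcw : ρ c w = w)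
    (hVa : ∀ y, ∃ k : ℕ, ρ a y = y + k • v) (hVc : ∀ y, ∃ l : ℕ, ρ c y = y + l • w)
    (hcase : ρ a w = w ∨ ρ c v = v)
    (hm : ∀ y, ρ ((a⁻¹ * c) ^ m) y = y) : ∀ y, ρ (a⁻¹ * c) y = y := by
  have hav' : ρ a⁻¹ v = v := by
    have := hρ.inv_apply a v; rw [hav] at this; exact this
  have hVa' : ∀ y, ∃ k : ℕ, ρ a⁻¹ y = y - k • v := by
    intro y
    obtain ⟨k, hk⟩ := hVa (ρ a⁻¹ y)
    rw [hρ.apply_inv] at hk
    exact ⟨k, eq_sub_of_add_eq hk.symm⟩
  have hrv_w : ρ (a⁻¹ * c) v = v ∧ ρ (a⁻¹ * c) w = w := by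
    rcases hcase with h1 | h1
    · have haw' : ρ a⁻¹ w = w := by
        have := hρ.inv_apply a w; rw [h1] at this; exact this
      have hrw : ρ (a⁻¹ * c) w = w := by rw [hρ.mul, hcw, haw']
      obtain ⟨t, ht⟩ := hVc v
      have hrv : ρ (a⁻¹ * c) v = v + t • w := by
        rw [hρ.mul, ht, hρ.add, hρ.nsmul, hav', haw']
      have hz : t • w = 0 := hρ.stab hp hM hmp hrv (by rw [hρ.nsmul, hrw]) (hm v)
      exact ⟨by rw [hrv, hz, add_zero], hrw⟩
    · have hrv : ρ (a⁻¹ * c) v = v := by rw [hρ.mul, h1, hav']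
      obtain ⟨k, hk⟩ := hVa' w
      have hrw : ρ (a⁻¹ * c) w = w + (-(k • v)) := by
        rw [hρ.mul, hcw, hk, sub_eq_add_neg]
      have hz : -(k • v) = 0 :=
        hρ.stab hp hM hmp hrw (by rw [hρ.neg, hρ.nsmul, hrv]) (hm w)
      exact ⟨hrv, by rw [hrw, hz, add_zero]⟩
  obtain ⟨hrv, hrw⟩ := hrv_w
  intro y
  obtain ⟨l, hl⟩ := hVc y
  obtain ⟨k, hk⟩ := hVa' y
  obtain ⟨k₀, hk₀⟩ := hVa' w
  have hry : ρ (a⁻¹ * c) y = y + (l • w - (l * k₀ + k) • v) := by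
    rw [hρ.mul, hl, hρ.add, hρ.nsmul, hk, hk₀]
    module
  have hz := hρ.stab hp hM hmp hry
    (by rw [hρ.sub, hρ.nsmul, hρ.nsmul, hrv, hrw]) (hm y)
  rw [hry, hz, add_zero]

/-- Decomposition `M = ⟨v, w⟩ + C_M(a, c)` in case (ii). -/
theorem decomp {p : ℕ} (hp : p.Prime) (hM : ∀ y : M, p • y = 0) (a c : Γ) (v w : M) (s t : ℕ)
    (hav : ρ a v = v) (hcw : ρ c w = w)
    (hVa : ∀ y, ∃ k : ℕ, ρ a y = y + k • v) (hVc : ∀ y, ∃ l : ℕ, ρ c y = y + l • w)
    (hs : ρ a w = w + s • v) (ht : ρ c v = v + t • w) (hsp : ¬ p ∣ s) (htp : ¬ p ∣ t) (y : M) :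
    ∃ (α β : ℕ) (y₁ : M), y = α • v + β • w + y₁ ∧ ρ a y₁ = y₁ ∧ ρ c y₁ = y₁ := by
  obtain ⟨k, hk⟩ := hVa y
  obtain ⟨l, hl⟩ := hVc y
  obtain ⟨s', -, hs'⟩ := Nat.exists_mul_mod_eq_one_of_coprime
    ((Nat.Prime.coprime_iff_not_dvd hp).mpr hsp).symm hp.one_lt
  obtain ⟨t', -, ht'⟩ := Nat.exists_mul_mod_eq_one_of_coprime
    ((Nat.Prime.coprime_iff_not_dvd hp).mpr htp).symm hp.one_lt
  refine ⟨t' * l, s' * k, y - ((t' * l) • v + (s' * k) • w), by abel, ?_, ?_⟩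
  · have e : (s' * k) • (s • v) = k • v := by
      rw [← mul_nsmul, ← mul_assoc, mul_nsmul, cyc_nsmul_eq_self hM hs']
    rw [hρ.sub, hρ.add, hρ.nsmul, hρ.nsmul, hav, hs, hk, nsmul_add, e]; abel
  · have e : (t' * l) • (t • w) = l • w := by
      rw [← mul_nsmul, ← mul_assoc, mul_nsmul, cyc_nsmul_eq_self hM ht']
    rw [hρ.sub, hρ.add, hρ.nsmul, hρ.nsmul, hcw, ht, hl, nsmul_add, e]; abel

/-- Case (ii): some element of `Γ` inverts `v` and commutes with `a` in its action on `M`. -/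
theorem exists_neg {p : ℕ} (hp : p.Prime) (hM : ∀ y : M, p • y = 0) (a c : Γ) (v w : M)
    (hav : ρ a v = v) (hcw : ρ c w = w)
    (hVa : ∀ y, ∃ k : ℕ, ρ a y = y + k • v) (hVc : ∀ y, ∃ l : ℕ, ρ c y = y + l • w)
    (haw : ρ a w ≠ w) (hcv : ρ c v ≠ v) :
    ∃ ζ : Γ, ρ ζ v = -v ∧ ∀ y, ρ ζ (ρ a y) = ρ a (ρ ζ y) := by
  obtain ⟨s, hs⟩ := hVa w
  obtain ⟨t, ht⟩ := hVc v
  have hsp : ¬ p ∣ s := fun h => haw (by rw [hs, cyc_nsmul_eq_zero hM h, add_zero])
  have htp : ¬ p ∣ t := fun h => hcv (by rw [ht, cyc_nsmul_eq_zero hM h, add_zero])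
  have hst : (s * t).Coprime p :=
    Nat.Coprime.mul_left ((Nat.Prime.coprime_iff_not_dvd hp).mpr hsp).symm
      ((Nat.Prime.coprime_iff_not_dvd hp).mpr htp).symm
  obtain ⟨m, -, hm⟩ := Nat.exists_mul_mod_eq_one_of_coprime hst hp.one_lt
  obtain ⟨j, hj⟩ : ∃ j : ℕ, p ∣ s * t * j + 1 := by
    obtain ⟨p', rfl⟩ : ∃ p', p = p' + 1 := ⟨p - 1, by have := hp.pos; omega⟩
    refine ⟨m * p', ?_⟩
    have h1 : s * t * m = (p' + 1) * (s * t * m / (p' + 1)) + 1 := by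
      have := Nat.div_add_mod (s * t * m) (p' + 1)
      rw [hm] at this
      exact this.symm
    refine ⟨(s * t * m / (p' + 1)) * p' + 1, ?_⟩
    calc s * t * (m * p') + 1 = (s * t * m) * p' + 1 := by ring
      _ = ((p' + 1) * (s * t * m / (p' + 1)) + 1) * p' + 1 := by rw [← h1]
      _ = _ := by ring
  have hv0 : (s * (t * j)) • v + v = 0 := by
    have : (s * (t * j) + 1) • v = 0 :=
      cyc_nsmul_eq_zero hM (by rw [← mul_assoc]; exact hj) v
    rw [add_nsmul, one_nsmul] at this; exact this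
  have hw0 : (s * (t * j)) • w + w = 0 := by
    have : (s * (t * j) + 1) • w = 0 :=
      cyc_nsmul_eq_zero hM (by rw [← mul_assoc]; exact hj) w
    rw [add_nsmul, one_nsmul] at this; exact this
  have hcjv : ∀ i : ℕ, ρ (c ^ i) v = v + (t * i) • w := by
    intro i
    induction i with
    | zero => simp [hρ.one]
    | succ i ih =>
      rw [pow_succ', hρ.mul, ih, hρ.add, hρ.nsmul, ht, hcw]; module
  have hcjw : ρ (c ^ j) w = w := hρ.pow_fixed c w hcw j
  have hnv : ρ (a * c ^ j * a) v = (t * j) • w := by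
    rw [hρ.mul, hρ.mul, hav, hcjv j, hρ.add, hρ.nsmul, hav, hs]
    calc v + (t * j) • (w + s • v) = (t * j) • w + ((s * (t * j)) • v + v) := by module
      _ = (t * j) • w := by rw [hv0, add_zero]
  have hnw : ρ (a * c ^ j * a) w = s • v := by
    have h1 : ρ (c ^ j) (ρ a w) = s • v := by
      rw [hs, hρ.add, hρ.nsmul, hcjw, hcjv j]
      calc w + s • (v + (t * j) • w) = s • v + ((s * (t * j)) • w + w) := by module
        _ = s • v := by rw [hw0, add_zero]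
    rw [hρ.mul, hρ.mul, h1, hρ.nsmul, hav]
  have hζv : ρ (a * c ^ j * a * (a * c ^ j * a)) v = -v := by
    rw [hρ.mul (a * c ^ j * a) (a * c ^ j * a), hnv, hρ.nsmul, hnw, ← mul_nsmul]
    exact eq_neg_of_add_eq_zero_left hv0
  have hζw : ρ (a * c ^ j * a * (a * c ^ j * a)) w = -w := by
    rw [hρ.mul (a * c ^ j * a) (a * c ^ j * a), hnw, hρ.nsmul, hnv, ← mul_nsmul, mul_comm]
    exact eq_neg_of_add_eq_zero_left hw0
  refine ⟨a * c ^ j * a * (a * c ^ j * a), hζv, ?_⟩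
  intro y
  obtain ⟨α, β, y₁, rfl, hay₁, hcy₁⟩ :=
    hρ.decomp hp hM a c v w s t hav hcw hVa hVc hs ht hsp htp y
  have hny₁ : ρ (a * c ^ j * a) y₁ = y₁ := by
    rw [hρ.mul, hρ.mul, hay₁, hρ.pow_fixed c y₁ hcy₁ j, hay₁]
  have hζy₁ : ρ (a * c ^ j * a * (a * c ^ j * a)) y₁ = y₁ := by
    rw [hρ.mul (a * c ^ j * a) (a * c ^ j * a), hny₁, hny₁]
  have hζ_span : ∀ α β : ℕ, ρ (a * c ^ j * a * (a * c ^ j * a)) (α • v + β • w) =
      -(α • v + β • w) := by
    intro α β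
    rw [hρ.add, hρ.nsmul, hρ.nsmul, hζv, hζw, smul_neg, smul_neg, neg_add]
  have hau : ρ a (α • v + β • w) = (α + β * s) • v + β • w := by
    rw [hρ.add, hρ.nsmul, hρ.nsmul, hav, hs]; module
  rw [hρ.add a, hau, hay₁, hρ.add, hζ_span, hζy₁, hρ.add, hζ_span, hζy₁, hρ.add, hρ.neg, hau,
    hay₁]

/-- Case (ii) for `p = 2`: `a c` acts with order `3` and moves `v`. -/
theorem two (hM : ∀ y : M, 2 • y = 0) (a c : Γ) (v w : M)
    (hav : ρ a v = v) (hcw : ρ c w = w)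
    (hVa : ∀ y, ∃ k : ℕ, ρ a y = y + k • v) (hVc : ∀ y, ∃ l : ℕ, ρ c y = y + l • w)
    (haw : ρ a w ≠ w) (hcv : ρ c v ≠ v) :
    ρ (a * c) v ≠ v ∧ ∀ y, ρ ((a * c) ^ 3) y = y := by
  obtain ⟨s, hs⟩ := hVa w
  obtain ⟨t, ht⟩ := hVc v
  have hsp : ¬ 2 ∣ s := fun h => haw (by rw [hs, cyc_nsmul_eq_zero hM h, add_zero])
  have htp : ¬ 2 ∣ t := fun h => hcv (by rw [ht, cyc_nsmul_eq_zero hM h, add_zero])
  have hs1 : s • v = v := cyc_nsmul_eq_self hM (by omega) v
  have ht1 : t • w = w := cyc_nsmul_eq_self hM (by omega) w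
  rw [hs1] at hs
  rw [ht1] at ht
  have hvv : v + v = 0 := by have := hM v; rwa [two_nsmul] at this
  have hww : w + w = 0 := by have := hM w; rwa [two_nsmul] at this
  have h1 : ρ (a * c) v = w := by
    rw [hρ.mul, ht, hρ.add, hav, hs]
    calc v + (w + v) = w + (v + v) := by abel
      _ = w := by rw [hvv, add_zero]
  have h2 : ρ (a * c) w = w + v := by rw [hρ.mul, hcw, hs]
  refine ⟨?_, ?_⟩
  · rw [h1]
    intro hwv
    exact haw (by rw [hwv, hav])
  · intro y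
    obtain ⟨α, β, y₁, rfl, hay₁, hcy₁⟩ :=
      hρ.decomp Nat.prime_two hM a c v w 1 1 hav hcw hVa hVc (by rw [one_nsmul]; exact hs)
        (by rw [one_nsmul]; exact ht) (by norm_num) (by norm_num) y
    have hgy₁ : ρ (a * c) y₁ = y₁ := by rw [hρ.mul, hcy₁, hay₁]
    have e1 : ρ (a * c) (w + v) = v := by
      rw [hρ.add, h2, h1]
      calc w + v + w = v + (w + w) := by abel
        _ = v := by rw [hww, add_zero]
    have h3v : ρ ((a * c) ^ 3) v = v := by
      rw [pow_three, hρ.mul (a * c) (a * c * (a * c)), hρ.mul (a * c) (a * c), h1, h2, e1]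
    have h3w : ρ ((a * c) ^ 3) w = w := by
      rw [pow_three, hρ.mul (a * c) (a * c * (a * c)), hρ.mul (a * c) (a * c), h2, e1, h1]
    have h3y : ρ ((a * c) ^ 3) y₁ = y₁ := hρ.pow_fixed (a * c) y₁ hgy₁ 3
    rw [hρ.add, hρ.add, hρ.nsmul, hρ.nsmul, h3v, h3w, h3y]

end CycAct

end CycLin

end Cfsg.Agent.Helper62
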