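import Mathlib
import Cfsg.Agent.Helper46.SFourE
import Cfsg.Agent.Helper62.CycLin

/-!
Helper library of seat helper62: the group-theoretic core of the Hall–Higman lemma on cyclic
normal subgroups of Sylow subgroups.

`cyc_core`: let `V` be a normal elementary abelian `p`-subgroup of a finite group with
`C(V) ≤ V`, and `a` an element with `a ^ p ∈ V` and `[V, a] ≤ ⟨a ^ p⟩`.  If some commutator
`a⁻¹ a^x` is non-trivial of `p'`-order modulo `V`, then `p = 2` and `S₄` is involved.
-/

set_option autoImplicit false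

namespace Cfsg.Agent.Helper62

open Cfsg

section CycCore

variable {G : Type*} [Group G]

/-- The additive commutative group structure on `Additive V` for an abelian subgroup `V`. -/
@[reducible] def cycAddCommGroup (V : Subgroup G) (h : ∀ y ∈ V, ∀ z ∈ V, y * z = z * y) :
    AddCommGroup (Additive V) :=
  { (inferInstance : AddGroup (Additive V)) with
    add_comm := fun a b => congrArg Additive.ofMul
      (Subtype.ext (h _ (Additive.toMul a).2 _ (Additive.toMul b).2)) }

/-- The underlying group element. -/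
def cycVal (V : Subgroup G) (y : Additive V) : G := ((Additive.toMul y : V) : G)

/-- An element of `V` as an element of `Additive V`. -/
def cycMk (V : Subgroup G) (g : G) (hg : g ∈ V) : Additive V := Additive.ofMul ⟨g, hg⟩

theorem cycVal_mk (V : Subgroup G) (g : G) (hg : g ∈ V) : cycVal V (cycMk V g hg) = g := rfl

theorem cycVal_mem (V : Subgroup G) (y : Additive V) : cycVal V y ∈ V := (Additive.toMul y).2

theorem cycVal_injective (V : Subgroup G) : Function.Injective (cycVal V) := by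
  intro y z h
  apply Additive.toMul.injective
  exact Subtype.ext h

/-- Conjugation action on `Additive V`. -/
def cycRho (V : Subgroup G) [hV : V.Normal] (g : G) (y : Additive V) : Additive V :=
  cycMk V (g * cycVal V y * g⁻¹) (hV.conj_mem _ (cycVal_mem V y) g)

theorem cycVal_rho (V : Subgroup G) [V.Normal] (g : G) (y : Additive V) :
    cycVal V (cycRho V g y) = g * cycVal V y * g⁻¹ := rfl

theorem cycRho_act (V : Subgroup G) [V.Normal] (h : ∀ y ∈ V, ∀ z ∈ V, y * z = z * y) :
    @CycAct G (Additive V) _ (cycAddCommGroup V h) (cycRho V) := by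
  letI := cycAddCommGroup V h
  have hadd : ∀ y z : Additive V, cycVal V (y + z) = cycVal V y * cycVal V z := fun _ _ => rfl
  refine ⟨?_, ?_, ?_⟩
  · intro y
    apply cycVal_injective
    rw [cycVal_rho]; group
  · intro g k y
    apply cycVal_injective
    rw [cycVal_rho, cycVal_rho, cycVal_rho]; group
  · intro g y z
    apply cycVal_injective
    rw [cycVal_rho, hadd, hadd, cycVal_rho, cycVal_rho]; group

/-- `(a e)^p = a^p` when `e` has order dividing `p`, and `[e, a]` commutes with `a` and `e` and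
has order dividing `p` (`p` odd). -/
theorem cyc_pow_mul_eq {a e : G} {p : ℕ} (hp : p.Prime) (hp2 : p ≠ 2)
    (z : G) (hz : e * a = z * a * e) (hza : a * z = z * a) (hze : e * z = z * e)
    (hzp : z ^ p = 1) (hep : e ^ p = 1) : (a * e) ^ p = a ^ p := by
  have h1 : ∀ k : ℕ, e ^ k * a = z ^ k * a * e ^ k := by
    intro k
    induction k with
    | zero => simp
    | succ k ih =>
      have hc : e * z ^ k = z ^ k * e := (Commute.pow_right (show Commute e z from hze) k)
      calc e ^ (k + 1) * a = e * (e ^ k * a) := by rw [pow_succ']; group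
        _ = e * (z ^ k * a * e ^ k) := by rw [ih]
        _ = (e * z ^ k) * a * e ^ k := by group
        _ = z ^ k * (e * a) * e ^ k := by rw [hc]; group
        _ = z ^ k * (z * a * e) * e ^ k := by rw [hz]
        _ = z ^ (k + 1) * a * e ^ (k + 1) := by rw [pow_succ, pow_succ']; group
  have h2 : ∀ k : ℕ, (a * e) ^ k = z ^ (k.choose 2) * a ^ k * e ^ k := by
    intro k
    induction k with
    | zero => simp
    | succ k ih =>
      have hzak : a ^ k * z ^ k = z ^ k * a ^ k :=
        (Commute.pow_pow (show Commute a z from hza) k k)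
      have hch : (k + 1).choose 2 = k.choose 2 + k := by
        rw [Nat.choose_succ_succ' k 1, Nat.choose_one_right, add_comm]
      calc (a * e) ^ (k + 1) = (a * e) ^ k * (a * e) := pow_succ _ _
        _ = z ^ (k.choose 2) * a ^ k * e ^ k * (a * e) := by rw [ih]
        _ = z ^ (k.choose 2) * a ^ k * (e ^ k * a) * e := by group
        _ = z ^ (k.choose 2) * a ^ k * (z ^ k * a * e ^ k) * e := by rw [h1 k]
        _ = z ^ (k.choose 2) * (a ^ k * z ^ k) * a * e ^ k * e := by group
        _ = z ^ (k.choose 2) * (z ^ k * a ^ k) * a * e ^ k * e := by rw [hzak]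
        _ = z ^ (k.choose 2 + k) * a ^ (k + 1) * e ^ (k + 1) := by
            rw [pow_add, pow_succ, pow_succ]; group
        _ = z ^ ((k + 1).choose 2) * a ^ (k + 1) * e ^ (k + 1) := by rw [hch]
  rw [h2 p]
  have hdvd : p ∣ p.choose 2 :=
    hp.dvd_choose_self (by norm_num) (lt_of_le_of_ne hp.two_le (Ne.symm hp2))
  obtain ⟨q, hq⟩ := hdvd
  rw [hq, pow_mul, hzp, one_pow, one_mul, hep, mul_one]

/-- **Core of the cyclic Hall–Higman lemma.** -/
theorem cyc_core [Finite G] {p : ℕ} [hp : Fact p.Prime] (V : Subgroup G) [hVn : V.Normal]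
    (hVab : ∀ y ∈ V, ∀ z ∈ V, y * z = z * y) (hVexp : ∀ y ∈ V, y ^ p = 1)
    (hCV : Subgroup.centralizer (V : Set G) ≤ V)
    (a x : G) (hav : a ^ p ∈ V)
    (hVa : ∀ y ∈ V, a * y * a⁻¹ * y⁻¹ ∈ Subgroup.zpowers (a ^ p))
    (m : ℕ) (hm : m.Coprime p) (hr : (a⁻¹ * (x * a * x⁻¹)) ^ m ∈ V)
    (hrV : a⁻¹ * (x * a * x⁻¹) ∉ V)
    (h : p ≠ 2 ∨ ¬ Involves (Equiv.Perm (Fin 4)) G) : False := by
  letI := cycAddCommGroup V hVab
  have cycVal_add : ∀ y z : Additive V, cycVal V (y + z) = cycVal V y * cycVal V z :=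
    fun _ _ => rfl
  have cycVal_zero : cycVal V (0 : Additive V) = 1 := rfl
  have cycVal_nsmul : ∀ (n : ℕ) (y : Additive V), cycVal V (n • y) = cycVal V y ^ n :=
    fun _ _ => rfl
  have cycVal_neg : ∀ y : Additive V, cycVal V (-y) = (cycVal V y)⁻¹ := fun _ => rfl
  have hρ := cycRho_act V hVab
  have hxp : (x * a * x⁻¹) ^ p = x * a ^ p * x⁻¹ := conj_pow
  have hcw : (x * a * x⁻¹) ^ p ∈ V := by
    rw [hxp]; exact hVn.conj_mem _ hav x
  have hVc : ∀ y ∈ V, (x * a * x⁻¹) * y * (x * a * x⁻¹)⁻¹ * y⁻¹ ∈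
      Subgroup.zpowers ((x * a * x⁻¹) ^ p) := by
    intro y hy
    have hy' : x⁻¹ * y * x ∈ V := by
      have := hVn.conj_mem y hy x⁻¹
      simpa using this
    obtain ⟨k, hk⟩ := Subgroup.mem_zpowers_iff.mp (hVa _ hy')
    refine Subgroup.mem_zpowers_iff.mpr ⟨k, ?_⟩
    have e2 : (x * a * x⁻¹) * y * (x * a * x⁻¹)⁻¹ * y⁻¹ =
        x * (a * (x⁻¹ * y * x) * a⁻¹ * (x⁻¹ * y * x)⁻¹) * x⁻¹ := by group
    rw [hxp, e2, ← hk, conj_zpow]
  clear hxp
  generalize hc : x * a * x⁻¹ = c at hcw hVc hr hrV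
  have hM : ∀ y : Additive V, p • y = 0 := by
    intro y
    apply cycVal_injective
    rw [cycVal_nsmul, cycVal_zero]
    exact hVexp _ (cycVal_mem V y)
  have hav' : cycRho V a (cycMk V (a ^ p) hav) = cycMk V (a ^ p) hav := by
    apply cycVal_injective
    rw [cycVal_rho, cycVal_mk, ← pow_succ', pow_succ, mul_inv_cancel_right]
  have hcw' : cycRho V c (cycMk V (c ^ p) hcw) = cycMk V (c ^ p) hcw := by
    apply cycVal_injective
    rw [cycVal_rho, cycVal_mk, ← pow_succ', pow_succ, mul_inv_cancel_right]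
  have hVa' : ∀ y : Additive V, ∃ k : ℕ, cycRho V a y = y + k • cycMk V (a ^ p) hav := by
    intro y
    have h1 := hVa (cycVal V y) (cycVal_mem V y)
    obtain ⟨k, hk⟩ := (Submonoid.mem_powers_iff _ _).mp
      ((isOfFinOrder_of_finite (a ^ p)).mem_powers_iff_mem_zpowers.mpr h1)
    refine ⟨k, cycVal_injective V ?_⟩
    rw [cycVal_rho, cycVal_add, cycVal_nsmul, cycVal_mk,
      hVab _ (cycVal_mem V y) _ (pow_mem hav k), hk]
    group
  have hVc' : ∀ y : Additive V, ∃ k : ℕ, cycRho V c y = y + k • cycMk V (c ^ p) hcw := by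
    intro y
    have h1 := hVc (cycVal V y) (cycVal_mem V y)
    obtain ⟨k, hk⟩ := (Submonoid.mem_powers_iff _ _).mp
      ((isOfFinOrder_of_finite (c ^ p)).mem_powers_iff_mem_zpowers.mpr h1)
    refine ⟨k, cycVal_injective V ?_⟩
    rw [cycVal_rho, cycVal_add, cycVal_nsmul, cycVal_mk,
      hVab _ (cycVal_mem V y) _ (pow_mem hcw k), hk]
    group
  by_cases hcase : cycRho V a (cycMk V (c ^ p) hcw) = cycMk V (c ^ p) hcw ∨
      cycRho V c (cycMk V (a ^ p) hav) = cycMk V (a ^ p) hav
  · -- case (i): unipotent action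
    have hmm : ∀ y : Additive V, cycRho V ((a⁻¹ * c) ^ m) y = y := by
      intro y
      apply cycVal_injective
      rw [cycVal_rho, hVab _ hr _ (cycVal_mem V y)]
      group
    have hcent := hρ.central_of_fixed hp.out hM hm a c _ _ hav' hcw' hVa' hVc' hcase hmm
    apply hrV
    apply hCV
    rw [Subgroup.mem_centralizer_iff]
    intro y hy
    have h1 : (a⁻¹ * c) * y * (a⁻¹ * c)⁻¹ = y := congrArg (cycVal V) (hcent (cycMk V y hy))
    calc y * (a⁻¹ * c) = ((a⁻¹ * c) * y * (a⁻¹ * c)⁻¹) * (a⁻¹ * c) := by rw [h1]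
      _ = (a⁻¹ * c) * y := by group
  · -- case (ii)
    have hcase := not_or.mp hcase
    by_cases hp2 : p = 2
    · -- `p = 2`: `S₄` is involved
      have hS4 := h.resolve_left (not_not.mpr hp2)
      subst hp2
      obtain ⟨h1, h3⟩ := hρ.two hM a c _ _ hav' hcw' hVa' hVc' hcase.1 hcase.2
      apply hS4
      refine Helper46.involves_four_of_inverted V ?_ a (a * c) ?_ ?_ ?_ 1 ?_ ?_
      · intro g
        exact ⟨1, Subtype.ext (by simpa using hVexp g g.2)⟩
      · rw [Subgroup.normalizer_eq_top]; exact Subgroup.mem_top _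
      · rw [Subgroup.normalizer_eq_top]; exact Subgroup.mem_top _
      · intro hcen
        apply h1
        apply cycVal_injective
        rw [cycVal_rho, cycVal_mk]
        have := Subgroup.mem_centralizer_iff.mp hcen (a ^ 2) hav
        rw [← this]; group
      · rw [Subgroup.mem_centralizer_iff]
        intro y hy
        have h4 : (a * c) ^ 3 * y * ((a * c) ^ 3)⁻¹ = y :=
          congrArg (cycVal V) (h3 (cycMk V y hy))
        rw [pow_one]
        calc y * (a * c) ^ 3 = ((a * c) ^ 3 * y * ((a * c) ^ 3)⁻¹) * (a * c) ^ 3 := by rw [h4]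
          _ = (a * c) ^ 3 * y := by group
      · have e : a * (a * c) * a⁻¹ * (a * c) = a ^ 2 * c ^ 2 := by
          rw [pow_two, pow_two]; group
        rw [e, Subgroup.mem_centralizer_iff]
        intro y hy
        exact hVab y hy _ (V.mul_mem hav hcw)
    · -- `p` odd
      obtain ⟨ζ, hζv, hζa⟩ := hρ.exists_neg hp.out hM a c _ _ hav' hcw' hVa' hVc' hcase.1 hcase.2
      have hζv' : ζ * a ^ p * ζ⁻¹ = (a ^ p)⁻¹ := by
        have := congrArg (cycVal V) hζv
        rwa [cycVal_rho, cycVal_neg, cycVal_mk] at this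
      have hcomm : ∀ y ∈ V, ζ * (a * y * a⁻¹) * ζ⁻¹ = a * (ζ * y * ζ⁻¹) * a⁻¹ :=
        fun y hy => congrArg (cycVal V) (hζa (cycMk V y hy))
      have he₀ : (a * ζ)⁻¹ * (ζ * a) ∈ V := by
        apply hCV
        rw [Subgroup.mem_centralizer_iff]
        intro y hy
        have h5 := hcomm y hy
        calc y * ((a * ζ)⁻¹ * (ζ * a))
            = (a * ζ)⁻¹ * (a * (ζ * y * ζ⁻¹) * a⁻¹) * (ζ * a) := by group
          _ = (a * ζ)⁻¹ * (ζ * (a * y * a⁻¹) * ζ⁻¹) * (ζ * a) := by rw [h5]
          _ = (a * ζ)⁻¹ * (ζ * a) * y := by group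
      have heV : ζ * ((a * ζ)⁻¹ * (ζ * a)) * ζ⁻¹ ∈ V := hVn.conj_mem _ he₀ ζ
      generalize he : ζ * ((a * ζ)⁻¹ * (ζ * a)) * ζ⁻¹ = e at heV
      have hζa' : ζ * a * ζ⁻¹ = a * e := by rw [← he]; group
      -- the commutator `z = e a e⁻¹ a⁻¹`
      obtain ⟨k, hk⟩ := Subgroup.mem_zpowers_iff.mp (hVa e⁻¹ (V.inv_mem heV))
      have hzV : (a ^ p) ^ k ∈ V := V.zpow_mem hav k
      have hz : e * a * e⁻¹ * a⁻¹ = (a ^ p) ^ k := by
        have e1 : e * a * e⁻¹ * a⁻¹ = e * (a * e⁻¹ * a⁻¹ * e⁻¹⁻¹) * e⁻¹ := by group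
        rw [e1, ← hk, hVab e heV _ hzV]; group
      have hpow : (a * e) ^ p = a ^ p := by
        refine cyc_pow_mul_eq hp.out hp2 ((a ^ p) ^ k) ?_ ?_ ?_ ?_ ?_
        · rw [← hz]; group
        · exact ((Commute.refl a).pow_right p).zpow_right k
        · exact hVab e heV _ hzV
        · exact hVexp _ hzV
        · exact hVexp e heV
      have hinv : (a ^ p)⁻¹ = a ^ p := by rw [← hζv', ← conj_pow, hζa', hpow]
      have hv2 : (a ^ p) ^ 2 = 1 := by
        rw [pow_two]
        nth_rewrite 1 [← hinv]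
        exact inv_mul_cancel _
      have hv1 : a ^ p = 1 := by
        have h6 : (a ^ p) ^ Nat.gcd 2 p = 1 := pow_gcd_eq_one.mpr ⟨hv2, hVexp _ hav⟩
        have hg : Nat.gcd 2 p = 1 :=
          (Nat.coprime_primes Nat.prime_two hp.out).mpr (Ne.symm hp2)
        rwa [hg, pow_one] at h6
      apply hcase.1
      apply cycVal_injective
      rw [cycVal_rho, cycVal_mk]
      have h7 := hVa _ hcw
      rw [hv1, Subgroup.zpowers_one_eq_bot, Subgroup.mem_bot] at h7
      exact mul_inv_eq_one.mp h7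

end CycCore

end Cfsg.Agent.Helper62
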