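import Mathlib
import Cfsg.Agent.Helper62.Subnormal
import Cfsg.Agent.Helper47.Basic

/-!
Helper library of seat helper62: two subnormal subgroups acting irreducibly on their commutator
modules (Kurzweil–Stellmacher 9.3.x).

Main result `subn_irr_main`: let `E = ⟨E₁, E₂⟩` act faithfully on the elementary abelian `p`-group `V`,
`E₁, E₂` subnormal in `E` with no nontrivial normal `p`-subgroups, irreducible on
`[V, E_i]`, these two commutators incomparable and `|E_i| > 2`.  Then `[E₁, E₂] = 1`,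
`E₁ ∩ E₂ = 1`, `[V, E₁] ∩ [V, E₂] = 1` and `[V, E] = [V, E₁][V, E₂]`.
-/

set_option autoImplicit false

namespace Cfsg.Agent.Helper62

open scoped commutatorElement

section SubnBasics

variable {X : Type*} [Group X]

/-- The conjugate `g H g⁻¹`. -/
abbrev cj (g : X) (H : Subgroup X) : Subgroup X := H.map (MulAut.conj g).toMonoidHom

theorem mem_cj {g h : X} {H : Subgroup X} (hh : h ∈ H) : g * h * g⁻¹ ∈ cj g H :=
  ⟨h, hh, by simp [MulAut.conj_apply]⟩

theorem mem_cj_iff {g y : X} {H : Subgroup X} : y ∈ cj g H ↔ g⁻¹ * y * g ∈ H := by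
  constructor
  · rintro ⟨h, hh, rfl⟩
    have e : g⁻¹ * ((MulAut.conj g).toMonoidHom h) * g = h := by
      simp [MulAut.conj_apply, mul_assoc]
    rw [e]; exact hh
  · intro hy
    refine ⟨g⁻¹ * y * g, hy, ?_⟩
    simp [MulAut.conj_apply, mul_assoc]

theorem cj_mul (a b : X) (H : Subgroup X) : cj (a * b) H = cj a (cj b H) := map_conj_mul H a b

theorem cj_one (H : Subgroup X) : cj (1 : X) H = H := map_conj_one H

theorem cj_inv_cj (g : X) (H : Subgroup X) : cj g⁻¹ (cj g H) = H := by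
  rw [← cj_mul, inv_mul_cancel, cj_one]

theorem cj_cj_inv (g : X) (H : Subgroup X) : cj g (cj g⁻¹ H) = H := by
  rw [← cj_mul, mul_inv_cancel, cj_one]

theorem cj_mono (g : X) {H K : Subgroup X} (h : H ≤ K) : cj g H ≤ cj g K := Subgroup.map_mono h

theorem cj_le_iff (g : X) {H K : Subgroup X} : cj g H ≤ cj g K ↔ H ≤ K := by
  constructor
  · intro h
    have := cj_mono g⁻¹ h
    rwa [cj_inv_cj, cj_inv_cj] at this
  · exact cj_mono g

theorem cj_commutator (g : X) (A B : Subgroup X) : cj g ⁅A, B⁆ = ⁅cj g A, cj g B⁆ :=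
  Subgroup.map_commutator A B _

theorem cj_bot (g : X) : cj g (⊥ : Subgroup X) = ⊥ := Subgroup.map_bot _

theorem cj_eq_bot_iff (g : X) {H : Subgroup X} : cj g H = ⊥ ↔ H = ⊥ := by
  constructor
  · intro h
    have := congrArg (cj g⁻¹) h
    rwa [cj_inv_cj, cj_bot] at this
  · rintro rfl; exact cj_bot g

theorem cj_eq_of_mem_normalizer {g : X} {H : Subgroup X}
    (h : g ∈ Subgroup.normalizer (H : Set X)) : cj g H = H := map_conj_eq_of_mem_normalizer H g h

theorem mem_normalizer_of_cj_eq {g : X} {H : Subgroup X} (h : cj g H = H) :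
    g ∈ Subgroup.normalizer (H : Set X) := mem_normalizer_of_map_conj_eq H g h

theorem cj_normalizer_le (g : X) (H : Subgroup X) :
    cj g (Subgroup.normalizer (H : Set X)) ≤ Subgroup.normalizer ((cj g H : Subgroup X) : Set X) :=
  Subgroup.le_normalizer_map _

theorem cj_le_normalizer {g : X} {A H : Subgroup X} (h : A ≤ Subgroup.normalizer (H : Set X)) :
    cj g A ≤ Subgroup.normalizer ((cj g H : Subgroup X) : Set X) :=
  (cj_mono g h).trans (cj_normalizer_le g H)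

theorem card_cj [Finite X] (g : X) (H : Subgroup X) : Nat.card (cj g H) = Nat.card H :=
  Subgroup.card_map_of_injective (MulAut.conj g).injective

theorem cj_isPGroup {p : ℕ} (g : X) {H : Subgroup X} (h : IsPGroup p H) : IsPGroup p (cj g H) :=
  h.map _

/-- If `A` and `B` normalize `H`, the commutator of their conjugate-invariant… : `g` normalizing
`V` and `B` normalizes `⁅V, B⁆`. -/
theorem mem_normalizer_commutator {g : X} {V B : Subgroup X}
    (hV : g ∈ Subgroup.normalizer (V : Set X)) (hB : g ∈ Subgroup.normalizer (B : Set X)) :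
    g ∈ Subgroup.normalizer ((⁅V, B⁆ : Subgroup X) : Set X) := by
  apply mem_normalizer_of_cj_eq
  rw [cj_commutator, cj_eq_of_mem_normalizer hV, cj_eq_of_mem_normalizer hB]

theorem le_normalizer_commutator {A V B : Subgroup X}
    (hV : A ≤ Subgroup.normalizer (V : Set X)) (hB : A ≤ Subgroup.normalizer (B : Set X)) :
    A ≤ Subgroup.normalizer ((⁅V, B⁆ : Subgroup X) : Set X) :=
  fun _ hg => mem_normalizer_commutator (hV hg) (hB hg)

/-- `⁅V, B⁆ ≤ V` when `B` normalizes `V`. -/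
theorem commutator_le_left_of_le_normalizer {V B : Subgroup X}
    (h : B ≤ Subgroup.normalizer (V : Set X)) : ⁅V, B⁆ ≤ V := by
  rw [Subgroup.commutator_le]
  intro v hv b hb
  have h1 : b * v⁻¹ * b⁻¹ ∈ V := (Subgroup.mem_normalizer_iff.mp (h hb) v⁻¹).mp (V.inv_mem hv)
  have e : ⁅v, b⁆ = v * (b * v⁻¹ * b⁻¹) := by rw [commutatorElement_def]; group
  rw [e]; exact V.mul_mem hv h1

/-- Commutators with a join. -/
theorem commutator_sup_le {V A B W : Subgroup X} (hA : ⁅V, A⁆ ≤ W) (hB : ⁅V, B⁆ ≤ W)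
    (hAW : A ≤ Subgroup.normalizer (W : Set X)) (hBW : B ≤ Subgroup.normalizer (W : Set X)) :
    ⁅V, A ⊔ B⁆ ≤ W := by
  let S : Subgroup X :=
    { carrier := {g | g ∈ Subgroup.normalizer (W : Set X) ∧ ∀ v ∈ V, ⁅v, g⁆ ∈ W}
      one_mem' := ⟨Subgroup.one_mem _, fun v _ => by
        rw [commutatorElement_def]; simp⟩
      mul_mem' := by
        rintro g h ⟨hg, hg'⟩ ⟨hh, hh'⟩
        refine ⟨Subgroup.mul_mem _ hg hh, fun v hv => ?_⟩
        have e : ⁅v, g * h⁆ = ⁅v, g⁆ * (g * ⁅v, h⁆ * g⁻¹) := by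
          simp only [commutatorElement_def]; group
        rw [e]
        exact W.mul_mem (hg' v hv) ((Subgroup.mem_normalizer_iff.mp hg _).mp (hh' v hv))
      inv_mem' := by
        rintro g ⟨hg, hg'⟩
        refine ⟨Subgroup.inv_mem _ hg, fun v hv => ?_⟩
        have e : ⁅v, g⁻¹⁆ = g⁻¹ * (⁅v, g⁆)⁻¹ * g⁻¹⁻¹ := by
          simp only [commutatorElement_def]; group
        rw [e]
        exact (Subgroup.mem_normalizer_iff.mp (Subgroup.inv_mem _ hg) _).mp
          (W.inv_mem (hg' v hv)) }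
  have hAS : A ≤ S := fun a ha =>
    ⟨hAW ha, fun v hv => hA (Subgroup.commutator_mem_commutator hv ha)⟩
  have hBS : B ≤ S := fun b hb =>
    ⟨hBW hb, fun v hv => hB (Subgroup.commutator_mem_commutator hv hb)⟩
  rw [Subgroup.commutator_le]
  intro v hv g hg
  exact ((sup_le hAS hBS) hg).2 v hv

/-- Restriction of subnormality to an intermediate subgroup. -/
theorem SubnIn.restrict {T N : Subgroup X} (h : SubnIn T N) :
    ∀ L : Subgroup X, N ≤ L → L ≤ T → SubnIn L N := by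
  induction h with
  | refl T =>
    intro L hNL hLT
    rw [le_antisymm hLT hNL]; exact SubnIn.refl T
  | step T T₁ N h1 h2 h3 ih =>
    intro L hNL hLT
    have h4 : SubnIn (L ⊓ T₁) N := ih (L ⊓ T₁) (le_inf hNL h3.le) inf_le_right
    refine SubnIn.step L (L ⊓ T₁) N inf_le_left ?_ h4
    exact (le_inf Subgroup.le_normalizer (hLT.trans h2)).trans
      Subgroup.inf_normalizer_le_normalizer_inf

theorem SubnIn.map {Y : Type*} [Group Y] (f : X →* Y) {T N : Subgroup X} (h : SubnIn T N) :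
    SubnIn (T.map f) (N.map f) := by
  induction h with
  | refl T => exact SubnIn.refl _
  | step T T₁ N h1 h2 h3 ih =>
    exact SubnIn.step _ (T₁.map f) _ (Subgroup.map_mono h1)
      ((Subgroup.map_mono h2).trans (Subgroup.le_normalizer_map f)) ih

/-- A proper subnormal subgroup lies in a proper normal subgroup. -/
theorem SubnIn.exists_normal_ne {T N : Subgroup X} (h : SubnIn T N) (hne : N ≠ T) :
    ∃ M : Subgroup X, N ≤ M ∧ M ≤ T ∧ T ≤ Subgroup.normalizer (M : Set X) ∧ M ≠ T := by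
  induction h with
  | refl T => exact absurd rfl hne
  | step T T₁ N h1 h2 h3 ih =>
    by_cases hT : T₁ = T
    · subst hT
      exact ih hne
    · exact ⟨T₁, h3.le, h1, h2, hT⟩

/-- A subnormal `p`-subgroup lies in a normal `p`-subgroup. -/
theorem SubnIn.exists_normal_pgroup [Finite X] {p : ℕ} [Fact p.Prime] {T D : Subgroup X}
    (h : SubnIn T D) (hD : IsPGroup p D) :
    ∃ N : Subgroup X, D ≤ N ∧ N ≤ T ∧ T ≤ Subgroup.normalizer (N : Set X) ∧ IsPGroup p N := by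
  induction h with
  | refl T => exact ⟨T, le_rfl, le_rfl, Subgroup.le_normalizer, hD⟩
  | step T T₁ D h1 h2 h3 ih =>
    obtain ⟨N₁, hDN₁, hN₁T₁, hT₁N₁, hN₁p⟩ := ih hD
    refine ⟨(Cfsg.pCore p ↥T₁).map T₁.subtype, ?_, ?_, ?_, ?_⟩
    · have hn : (N₁.subgroupOf T₁).Normal :=
        (Subgroup.normal_subgroupOf_iff_le_normalizer hN₁T₁).mpr hT₁N₁
      have hp' : IsPGroup p (N₁.subgroupOf T₁) :=
        hN₁p.comap_of_injective (T₁.subtype) (Subgroup.subtype_injective _)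
      have h5 := Helper47.le_pCore hn hp'
      have h6 := Subgroup.map_mono (f := T₁.subtype) h5
      rw [Subgroup.map_subgroupOf_eq_of_le hN₁T₁] at h6
      exact hDN₁.trans h6
    · exact (Subgroup.map_subtype_le _).trans h1
    · exact h2.trans (Helper47.normalizer_le_normalizer_map_of_characteristic T₁ _)
    · exact (Helper47.pCore_isPGroup p ↥T₁).map _

end SubnBasics

section SubnIrr

variable {G : Type*} [Group G]

/-- `d ^ p` centralizes `V` when `d` stabilizes the chain `1 ≤ U ≤ V`. -/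
theorem pow_mem_centralizer_of_stab {p : ℕ} {V U : Subgroup G} (hVexp : ∀ y ∈ V, y ^ p = 1)
    (hUV : U ≤ V) {d : G} (h1 : ∀ v ∈ V, ⁅v, d⁆ ∈ U) (h2 : ∀ u ∈ U, u * d = d * u) :
    d ^ p ∈ Subgroup.centralizer (V : Set G) := by
  rw [Subgroup.mem_centralizer_iff]
  intro v hv
  have hz : ⁅d, v⁆ ∈ U := by
    have := U.inv_mem (h1 v hv)
    rwa [commutatorElement_inv] at this
  have key : ∀ k : ℕ, d ^ k * v * (d ^ k)⁻¹ = ⁅d, v⁆ ^ k * v := by
    intro k
    induction k with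
    | zero => simp
    | succ k ih =>
      have hc : d * ⁅d, v⁆ ^ k = ⁅d, v⁆ ^ k * d :=
        (Commute.pow_right (show Commute d ⁅d, v⁆ from (h2 _ hz).symm) k)
      calc d ^ (k + 1) * v * (d ^ (k + 1))⁻¹ = d * (d ^ k * v * (d ^ k)⁻¹) * d⁻¹ := by
            rw [pow_succ']; group
        _ = d * (⁅d, v⁆ ^ k * v) * d⁻¹ := by rw [ih]
        _ = (d * ⁅d, v⁆ ^ k) * v * d⁻¹ := by group
        _ = ⁅d, v⁆ ^ k * (d * v * d⁻¹ * v⁻¹) * v := by rw [hc]; group
        _ = ⁅d, v⁆ ^ (k + 1) * v := by rw [← commutatorElement_def, pow_succ]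
  have h3 := key p
  rw [hVexp _ (hUV hz), one_mul] at h3
  calc v * d ^ p = (d ^ p * v * (d ^ p)⁻¹) * d ^ p := by rw [h3]
    _ = d ^ p * v := by group

/-- `E₁` has no nontrivial normal `p`-subgroup. -/
def NoNP (p : ℕ) (E₁ : Subgroup G) : Prop :=
  ∀ D : Subgroup G, D ≤ E₁ → E₁ ≤ Subgroup.normalizer (D : Set G) → IsPGroup p D → D = ⊥

/-- `E₁` acts irreducibly on `⁅V, E₁⁆`. -/
def IrrOn (V E₁ : Subgroup G) : Prop :=
  ∀ U : Subgroup G, U ≤ ⁅V, E₁⁆ → E₁ ≤ Subgroup.normalizer (U : Set G) → U = ⊥ ∨ U = ⁅V, E₁⁆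

theorem NoNP.cj {p : ℕ} {E₁ : Subgroup G} (h : NoNP p E₁) (g : G) : NoNP p (cj g E₁) := by
  intro D hD hn hp
  have h1 : Helper62.cj g⁻¹ D ≤ E₁ := by
    have := cj_mono g⁻¹ hD
    rwa [cj_inv_cj] at this
  have h2 : E₁ ≤ Subgroup.normalizer ((Helper62.cj g⁻¹ D : Subgroup G) : Set G) := by
    have := cj_le_normalizer (g := g⁻¹) hn
    rwa [cj_inv_cj] at this
  have h3 := h _ h1 h2 (cj_isPGroup g⁻¹ hp)
  exact (cj_eq_bot_iff g⁻¹).mp h3

theorem IrrOn.cj {V E₁ : Subgroup G} (h : IrrOn V E₁) {g : G}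
    (hg : g ∈ Subgroup.normalizer (V : Set G)) : IrrOn V (cj g E₁) := by
  have hW : Helper62.cj g ⁅V, E₁⁆ = ⁅V, Helper62.cj g E₁⁆ := by
    rw [cj_commutator, cj_eq_of_mem_normalizer hg]
  intro U hU hn
  have h1 : Helper62.cj g⁻¹ U ≤ ⁅V, E₁⁆ := by
    have := cj_mono g⁻¹ hU
    rwa [← hW, cj_inv_cj] at this
  have h2 : E₁ ≤ Subgroup.normalizer ((Helper62.cj g⁻¹ U : Subgroup G) : Set G) := by
    have := cj_le_normalizer (g := g⁻¹) hn
    rwa [cj_inv_cj] at this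
  rcases h _ h1 h2 with h3 | h3
  · left; exact (cj_eq_bot_iff g⁻¹).mp h3
  · right
    have := congrArg (Helper62.cj g) h3
    rwa [cj_cj_inv, hW] at this

/-- The common hypotheses, with the induction facts `I₁`, `I₂` for non-normalizing conjugates. -/
structure SIrrCtx (p : ℕ) (V E E₁ E₂ : Subgroup G) : Prop where
  hVab : ∀ y ∈ V, ∀ z ∈ V, y * z = z * y
  hVexp : ∀ y ∈ V, y ^ p = 1
  hEV : E ≤ Subgroup.normalizer (V : Set G)
  hf : E ⊓ Subgroup.centralizer (V : Set G) = ⊥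
  h1E : E₁ ≤ E
  h2E : E₂ ≤ E
  hnp₁ : NoNP p E₁
  hnp₂ : NoNP p E₂
  hirr₁ : IrrOn V E₁
  hirr₂ : IrrOn V E₂
  h12 : ¬ ⁅V, E₁⁆ ≤ ⁅V, E₂⁆
  h21 : ¬ ⁅V, E₂⁆ ≤ ⁅V, E₁⁆
  I₁ : ∀ g ∈ E, g ∉ Subgroup.normalizer ((⁅V, E₁⁆ : Subgroup G) : Set G) →
    ⁅E₁, cj g E₁⁆ = ⊥ ∧ ⁅V, E₁⁆ ⊓ cj g ⁅V, E₁⁆ = ⊥
  I₂ : ∀ g ∈ E, g ∉ Subgroup.normalizer ((⁅V, E₂⁆ : Subgroup G) : Set G) →
    ⁅E₂, cj g E₂⁆ = ⊥ ∧ ⁅V, E₂⁆ ⊓ cj g ⁅V, E₂⁆ = ⊥

namespace SIrrCtx

variable {p : ℕ} {V E E₁ E₂ : Subgroup G}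

theorem symm (c : SIrrCtx p V E E₁ E₂) : SIrrCtx p V E E₂ E₁ :=
  ⟨c.hVab, c.hVexp, c.hEV, c.hf, c.h2E, c.h1E, c.hnp₂, c.hnp₁, c.hirr₂, c.hirr₁, c.h21, c.h12,
    c.I₂, c.I₁⟩

variable (c : SIrrCtx p V E E₁ E₂)
include c

theorem W_le : ⁅V, E₁⁆ ≤ V := commutator_le_left_of_le_normalizer (c.h1E.trans c.hEV)

theorem E_norm : E₁ ≤ Subgroup.normalizer ((⁅V, E₁⁆ : Subgroup G) : Set G) :=
  le_normalizer_commutator (c.h1E.trans c.hEV) Subgroup.le_normalizer

theorem cjW {g : G} (hg : g ∈ E) : cj g ⁅V, E₁⁆ = ⁅V, cj g E₁⁆ := by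
  rw [cj_commutator, cj_eq_of_mem_normalizer (c.hEV hg)]

theorem eq_one_of_mem {d : G} (hd : d ∈ E) (hd' : d ∈ Subgroup.centralizer (V : Set G)) :
    d = 1 := by
  have : d ∈ E ⊓ Subgroup.centralizer (V : Set G) := ⟨hd, hd'⟩
  rw [c.hf] at this
  exact Subgroup.mem_bot.mp this

theorem cj_le {g : G} (hg : g ∈ E) : cj g E₁ ≤ E := by
  have := cj_mono g c.h1E
  rwa [cj_eq_of_mem_normalizer (Subgroup.le_normalizer hg)] at this

/-- A subgroup of `E₁` normalized by `E₁`, centralizing `⁅V, E₁⁆`, is trivial. -/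
theorem eq_bot_of_cent {D : Subgroup G} (hD : D ≤ E₁)
    (hn : E₁ ≤ Subgroup.normalizer (D : Set G))
    (hc : D ≤ Subgroup.centralizer ((⁅V, E₁⁆ : Subgroup G) : Set G)) : D = ⊥ := by
  apply c.hnp₁ D hD hn
  rintro ⟨d, hd⟩
  refine ⟨1, Subtype.ext ?_⟩
  have h1 : d ^ p ∈ Subgroup.centralizer (V : Set G) :=
    pow_mem_centralizer_of_stab c.hVexp c.W_le
      (fun v hv => Subgroup.commutator_mem_commutator hv (hD hd))
      (fun u hu => Subgroup.mem_centralizer_iff.mp (hc hd) u hu)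
  have h2 := c.eq_one_of_mem (E.pow_mem (c.h1E (hD hd)) p) h1
  rw [pow_one, Subgroup.coe_pow]
  exact h2

theorem W_ne_bot : ⁅V, E₁⁆ ≠ ⊥ := fun h => c.h12 (by rw [h]; exact bot_le)

theorem comm_self : ⁅⁅V, E₁⁆, E₁⁆ = ⁅V, E₁⁆ := by
  rcases c.hirr₁ ⁅⁅V, E₁⁆, E₁⁆ (commutator_le_left_of_le_normalizer c.E_norm)
    (le_normalizer_commutator c.E_norm Subgroup.le_normalizer) with h | h
  · exfalso
    have h1 : E₁ ≤ Subgroup.centralizer ((⁅V, E₁⁆ : Subgroup G) : Set G) := by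
      rw [Subgroup.commutator_eq_bot_iff_le_centralizer] at h
      exact Subgroup.le_centralizer_iff.mp h
    have h2 := c.eq_bot_of_cent le_rfl Subgroup.le_normalizer h1
    apply c.W_ne_bot
    rw [h2, Subgroup.commutator_bot_right]
  · exact h

/-- A conjugate of `E₁` with a different commutator module centralizes `⁅V, E₁⁆`. -/
theorem cent_of_not_norm {g : G} (hg : g ∈ E)
    (hgn : g ∉ Subgroup.normalizer ((⁅V, E₁⁆ : Subgroup G) : Set G)) :
    cj g E₁ ≤ Subgroup.centralizer ((⁅V, E₁⁆ : Subgroup G) : Set G) := by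
  obtain ⟨h1, h2⟩ := c.I₁ g hg hgn
  have h3 : cj g E₁ ≤ Subgroup.normalizer (E₁ : Set G) := by
    rw [Subgroup.commutator_comm, Subgroup.commutator_eq_bot_iff_le_centralizer] at h1
    exact h1.trans (Subgroup.centralizer_le_normalizer _)
  have h4 : cj g E₁ ≤ Subgroup.normalizer ((⁅V, E₁⁆ : Subgroup G) : Set G) :=
    le_normalizer_commutator ((c.cj_le hg).trans c.hEV) h3
  have h5 : ⁅⁅V, E₁⁆, cj g E₁⁆ ≤ ⁅V, E₁⁆ ⊓ cj g ⁅V, E₁⁆ := by
    refine le_inf (commutator_le_left_of_le_normalizer h4) ?_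
    rw [c.cjW hg]
    exact Subgroup.commutator_mono c.W_le le_rfl
  rw [h2, le_bot_iff, Subgroup.commutator_eq_bot_iff_le_centralizer] at h5
  exact Subgroup.le_centralizer_iff.mp h5

/-- If `b ∈ E` normalizes `⁅V, E₂⁆`, then `⟨E₂^b, E₂⟩` has commutator with `V` inside `⁅V, E₂⁆`. -/
theorem comm_sup_le {b : G} (hb : b ∈ E)
    (hbn : b ∈ Subgroup.normalizer ((⁅V, E₂⁆ : Subgroup G) : Set G)) :
    ⁅V, cj b E₂ ⊔ E₂⁆ ≤ ⁅V, E₂⁆ := by
  have h1 : ⁅V, cj b E₂⁆ = ⁅V, E₂⁆ := by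
    rw [← c.symm.cjW hb, cj_eq_of_mem_normalizer hbn]
  refine commutator_sup_le (le_of_eq h1) le_rfl ?_ c.symm.E_norm
  have h2 := cj_le_normalizer (g := b) c.symm.E_norm
  rwa [cj_eq_of_mem_normalizer hbn] at h2

/-- Lemma K. -/
theorem comm_mem {b x : G} (hb : b ∈ E₁)
    (hbn : b ∈ Subgroup.normalizer ((⁅V, E₂⁆ : Subgroup G) : Set G)) (hx : x ∈ E₂)
    (hxn : x ∉ Subgroup.normalizer ((⁅V, E₁⁆ : Subgroup G) : Set G)) :
    ∀ v ∈ ⁅V, E₁⁆, ⁅v, b⁆ ∈ ⁅V, E₂⁆ := by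
  intro v hv
  have h1 : x * b * x⁻¹ ∈ Subgroup.centralizer ((⁅V, E₁⁆ : Subgroup G) : Set G) :=
    c.cent_of_not_norm (c.h2E hx) hxn (mem_cj hb)
  have h2 : v⁻¹ * (x * b * x⁻¹) = x * b * x⁻¹ * v⁻¹ :=
    Subgroup.mem_centralizer_iff.mp h1 v⁻¹ (Subgroup.inv_mem _ hv)
  have h3 : b * x * b⁻¹ * x⁻¹ ∈ cj b E₂ ⊔ E₂ :=
    Subgroup.mul_mem _ (Subgroup.mem_sup_left (mem_cj hx))
      (Subgroup.mem_sup_right (E₂.inv_mem hx))
  have h4 : ⁅v, b * x * b⁻¹ * x⁻¹⁆ ∈ ⁅V, E₂⁆ :=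
    c.comm_sup_le (c.h1E hb) hbn (Subgroup.commutator_mem_commutator (c.W_le hv) h3)
  have e : ⁅v, b * x * b⁻¹ * x⁻¹⁆ = ⁅v, b⁆ := by
    simp only [commutatorElement_def]
    calc v * (b * x * b⁻¹ * x⁻¹) * v⁻¹ * (b * x * b⁻¹ * x⁻¹)⁻¹
        = v * b * (x * b * x⁻¹)⁻¹ * (v⁻¹ * (x * b * x⁻¹)) * b⁻¹ := by group
      _ = v * b * (x * b * x⁻¹)⁻¹ * (x * b * x⁻¹ * v⁻¹) * b⁻¹ := by rw [h2]
      _ = v * b * v⁻¹ * b⁻¹ := by group
  rwa [e] at h4

/-- Lemma SQ. -/
theorem sq {a x : G} (ha : a ∈ E₁)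
    (han : a ∉ Subgroup.normalizer ((⁅V, E₂⁆ : Subgroup G) : Set G)) (hx : x ∈ E₂)
    (hxn : x ∉ Subgroup.normalizer ((⁅V, E₁⁆ : Subgroup G) : Set G)) :
    (a * a ∈ Subgroup.normalizer ((⁅V, E₂⁆ : Subgroup G) : Set G) → x * x = 1) ∧
    (a * a ∉ Subgroup.normalizer ((⁅V, E₂⁆ : Subgroup G) : Set G) →
      x ∈ Subgroup.centralizer ((⁅V, E₂⁆ : Subgroup G) : Set G)) := by
  -- commutation facts
  have hc1 : Commute a (x * a * x⁻¹) := by
    have h1 := (c.I₁ x (c.h2E hx) hxn).1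
    rw [Subgroup.commutator_eq_bot_iff_le_centralizer] at h1
    exact (Subgroup.mem_centralizer_iff.mp (h1 ha) _ (mem_cj ha)).symm
  have hc2 : Commute x (a * x * a⁻¹) := by
    have h1 := (c.I₂ a (c.h1E ha) han).1
    rw [Subgroup.commutator_eq_bot_iff_le_centralizer] at h1
    exact (Subgroup.mem_centralizer_iff.mp (h1 hx) _ (mem_cj hx)).symm
  have hc1' : a * (x * a * x⁻¹)⁻¹ = (x * a * x⁻¹)⁻¹ * a := hc1.inv_right.eq
  have hc2' : x⁻¹ * (a * x * a⁻¹) = (a * x * a⁻¹) * x⁻¹ := hc2.inv_left.eq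
  -- the identity `a x² a⁻¹ = (a² x a⁻²) x`
  have hE : a * (x * x) * a⁻¹ = (a * a) * x * (a * a)⁻¹ * x := by
    have e1 : (a * a) * x * (a * a)⁻¹ * x⁻¹ = a * (a * (x * a * x⁻¹)⁻¹) * (x * a * x⁻¹)⁻¹ := by group
    have e2 : a * ((x * a * x⁻¹)⁻¹ * a) * (x * a * x⁻¹)⁻¹ =
        (a * x * a⁻¹) * (x⁻¹ * (a * x * a⁻¹)) * x⁻¹ := by group
    have e3 : (a * a) * x * (a * a)⁻¹ * x⁻¹ = (a * x * a⁻¹) * (a * x * a⁻¹) * x⁻¹ * x⁻¹ := by
      rw [e1, hc1', e2, hc2']; group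
    calc a * (x * x) * a⁻¹ = ((a * x * a⁻¹) * (a * x * a⁻¹) * x⁻¹ * x⁻¹) * x * x := by group
      _ = ((a * a) * x * (a * a)⁻¹ * x⁻¹) * x * x := by rw [e3]
      _ = (a * a) * x * (a * a)⁻¹ * x := by group
  constructor
  · intro haa
    have hu1 : a * (x * x) * a⁻¹ ∈ cj a E₂ := mem_cj (E₂.mul_mem hx hx)
    have hu2 : a * (x * x) * a⁻¹ ∈ cj (a * a) E₂ ⊔ E₂ := by
      rw [hE]
      exact Subgroup.mul_mem _ (Subgroup.mem_sup_left (mem_cj hx)) (Subgroup.mem_sup_right hx)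
    have hu3 : a * (x * x) * a⁻¹ ∈ Subgroup.centralizer (V : Set G) := by
      rw [Subgroup.mem_centralizer_iff]
      intro v hv
      have h1 : ⁅v, a * (x * x) * a⁻¹⁆ ∈ cj a ⁅V, E₂⁆ := by
        rw [c.symm.cjW (c.h1E ha)]
        exact Subgroup.commutator_mem_commutator hv hu1
      have h2 : ⁅v, a * (x * x) * a⁻¹⁆ ∈ ⁅V, E₂⁆ :=
        c.comm_sup_le (c.h1E (E₁.mul_mem ha ha)) haa
          (Subgroup.commutator_mem_commutator hv hu2)
      have h3 : ⁅v, a * (x * x) * a⁻¹⁆ ∈ ⁅V, E₂⁆ ⊓ cj a ⁅V, E₂⁆ := ⟨h2, h1⟩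
      rw [(c.I₂ a (c.h1E ha) han).2, Subgroup.mem_bot] at h3
      exact commutatorElement_eq_one_iff_mul_comm.mp h3
    have hu4 := c.eq_one_of_mem ((c.symm.cj_le (c.h1E ha)) hu1) hu3
    have : x * x = a⁻¹ * (a * (x * x) * a⁻¹) * a := by group
    rw [this, hu4]; group
  · intro haa
    have h1 : a * (x * x) * a⁻¹ ∈ Subgroup.centralizer ((⁅V, E₂⁆ : Subgroup G) : Set G) :=
      c.symm.cent_of_not_norm (c.h1E ha) han (mem_cj (E₂.mul_mem hx hx))
    have h2 : (a * a) * x * (a * a)⁻¹ ∈ Subgroup.centralizer ((⁅V, E₂⁆ : Subgroup G) : Set G) :=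
      c.symm.cent_of_not_norm (c.h1E (E₁.mul_mem ha ha)) haa (mem_cj hx)
    have e : x = ((a * a) * x * (a * a)⁻¹)⁻¹ * (a * (x * x) * a⁻¹) := by
      rw [hE]; group
    rw [e]
    exact Subgroup.mul_mem _ (Subgroup.inv_mem _ h2) h1

omit c in
/-- Key: no element of `E₂` moves `⁅V, E₁⁆`. -/
theorem key (c : SIrrCtx p V E E₁ E₂) (hc₁ : 2 < Nat.card E₁) :
    E₂ ≤ Subgroup.normalizer ((⁅V, E₁⁆ : Subgroup G) : Set G) := by
  by_contra hcon
  obtain ⟨x₀, hx₀, hx₀n⟩ := SetLike.not_le_iff_exists.mp hcon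
  -- (k1)
  have k1 : ∃ a₀ ∈ E₁, a₀ ∉ Subgroup.normalizer ((⁅V, E₂⁆ : Subgroup G) : Set G) := by
    by_contra h
    have h' : ∀ a₀ ∈ E₁, a₀ ∈ Subgroup.normalizer ((⁅V, E₂⁆ : Subgroup G) : Set G) := by
      intro a₀ ha₀
      by_contra h2
      exact h ⟨a₀, ha₀, h2⟩
    apply c.h12
    rw [← c.comm_self, Subgroup.commutator_le]
    intro v hv b hb
    exact c.comm_mem hb (h' b hb) hx₀ hx₀n v hv
  obtain ⟨a₀, ha₀, ha₀n⟩ := k1
  -- (k2)
  have k2a : a₀ * a₀ ∈ Subgroup.normalizer ((⁅V, E₂⁆ : Subgroup G) : Set G) := by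
    by_contra haa
    have h1 : ∀ x ∈ E₂, x ∉ Subgroup.normalizer ((⁅V, E₁⁆ : Subgroup G) : Set G) →
        x ∈ Subgroup.centralizer ((⁅V, E₂⁆ : Subgroup G) : Set G) :=
      fun x hx hxn => (c.sq ha₀ ha₀n hx hxn).2 haa
    have h2 : E₂ ≤ Subgroup.centralizer ((⁅V, E₂⁆ : Subgroup G) : Set G) := by
      intro y hy
      by_cases hyn : y ∈ Subgroup.normalizer ((⁅V, E₁⁆ : Subgroup G) : Set G)
      · have h3 : y * x₀ ∉ Subgroup.normalizer ((⁅V, E₁⁆ : Subgroup G) : Set G) := by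
          intro h4
          apply hx₀n
          have := Subgroup.mul_mem _ (Subgroup.inv_mem _ hyn) h4
          rwa [inv_mul_cancel_left] at this
        have h5 := h1 _ (E₂.mul_mem hy hx₀) h3
        have h6 := Subgroup.mul_mem _ h5 (Subgroup.inv_mem _ (h1 x₀ hx₀ hx₀n))
        rwa [mul_inv_cancel_right] at h6
      · exact h1 y hy hyn
    have h7 := c.symm.eq_bot_of_cent le_rfl Subgroup.le_normalizer h2
    rw [h7, Subgroup.mem_bot] at hx₀
    rw [hx₀] at hx₀n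
    exact hx₀n (Subgroup.one_mem _)
  have k2 : ∀ x ∈ E₂, x ∉ Subgroup.normalizer ((⁅V, E₁⁆ : Subgroup G) : Set G) → x * x = 1 :=
    fun x hx hxn => (c.sq ha₀ ha₀n hx hxn).1 k2a
  -- (k3)
  have k3 : ∀ a ∈ E₁, a ∉ Subgroup.normalizer ((⁅V, E₂⁆ : Subgroup G) : Set G) → a * a = 1 := by
    intro a ha han
    refine (c.symm.sq hx₀ hx₀n ha han).1 ?_
    rw [k2 x₀ hx₀ hx₀n]
    exact Subgroup.one_mem _
  -- (k4)
  have k4n : E₁ ≤ Subgroup.normalizer
      ((E₁ ⊓ Subgroup.normalizer ((⁅V, E₂⁆ : Subgroup G) : Set G) : Subgroup G) : Set G) := by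
    intro a ha
    by_cases han : a ∈ Subgroup.normalizer ((⁅V, E₂⁆ : Subgroup G) : Set G)
    · exact Subgroup.le_normalizer
        (show a ∈ E₁ ⊓ Subgroup.normalizer ((⁅V, E₂⁆ : Subgroup G) : Set G) from ⟨ha, han⟩)
    · have haa := k3 a ha han
      have hinv : a⁻¹ = a := inv_eq_of_mul_eq_one_left haa
      have hcj : ∀ b ∈ E₁ ⊓ Subgroup.normalizer ((⁅V, E₂⁆ : Subgroup G) : Set G),
          a * b * a⁻¹ = b⁻¹ := by
        intro b hb
        have h1 : a * b ∉ Subgroup.normalizer ((⁅V, E₂⁆ : Subgroup G) : Set G) := by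
          intro h2
          apply han
          have := Subgroup.mul_mem _ h2 (Subgroup.inv_mem _ hb.2)
          rwa [mul_inv_cancel_right] at this
        have h3 := k3 _ (E₁.mul_mem ha hb.1) h1
        rw [hinv]
        calc a * b * a = (a * b) * (a * b) * b⁻¹ := by group
          _ = b⁻¹ := by rw [h3, one_mul]
      rw [Subgroup.mem_normalizer_iff]
      intro h
      constructor
      · intro hh
        rw [hcj h hh]; exact Subgroup.inv_mem _ hh
      · intro hh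
        have h4 := hcj _ hh
        have h5 : a * (a * h * a⁻¹) * a⁻¹ = h := by
          calc a * (a * h * a⁻¹) * a⁻¹ = (a * a) * h * (a * a)⁻¹ := by group
            _ = h := by rw [haa]; group
        rw [h5] at h4
        rw [h4]; exact Subgroup.inv_mem _ hh
  have k4 : E₁ ⊓ Subgroup.normalizer ((⁅V, E₂⁆ : Subgroup G) : Set G) = ⊥ := by
    have h1 : ⁅⁅V, E₁⁆, E₁ ⊓ Subgroup.normalizer ((⁅V, E₂⁆ : Subgroup G) : Set G)⁆ ≤ ⁅V, E₂⁆ := by
      rw [Subgroup.commutator_le]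
      intro v hv b hb
      exact c.comm_mem hb.1 hb.2 hx₀ hx₀n v hv
    have h2 : ⁅⁅V, E₁⁆, E₁ ⊓ Subgroup.normalizer ((⁅V, E₂⁆ : Subgroup G) : Set G)⁆ ≤ ⁅V, E₁⁆ :=
      commutator_le_left_of_le_normalizer (inf_le_left.trans c.E_norm)
    rcases c.hirr₁ _ h2 (le_normalizer_commutator c.E_norm k4n) with h3 | h3
    · rw [Subgroup.commutator_eq_bot_iff_le_centralizer] at h3
      exact c.eq_bot_of_cent inf_le_left k4n (Subgroup.le_centralizer_iff.mp h3)
    · exfalso; apply c.h12; rw [← h3]; exact h1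
  -- (k5)
  have k5 : ∀ a ∈ E₁, a * a = 1 := by
    intro a ha
    by_cases han : a ∈ Subgroup.normalizer ((⁅V, E₂⁆ : Subgroup G) : Set G)
    · have : a ∈ E₁ ⊓ Subgroup.normalizer ((⁅V, E₂⁆ : Subgroup G) : Set G) := ⟨ha, han⟩
      rw [k4, Subgroup.mem_bot] at this
      rw [this, one_mul]
    · exact k3 a ha han
  have hcomm : ∀ a ∈ E₁, ∀ b ∈ E₁, a * b = b * a := by
    intro a ha b hb
    have h1 := k5 _ (E₁.mul_mem ha hb)
    have h2 := k5 a ha
    have h3 := k5 b hb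
    calc a * b = a * ((a * b) * (a * b)) * b := by rw [h1, mul_one]
      _ = (a * a) * (b * a) * (b * b) := by group
      _ = b * a := by rw [h2, h3, one_mul, mul_one]
  rcases Nat.even_or_odd p with hp | hp
  · have h1 : IsPGroup p E₁ := by
      rintro ⟨g, hg⟩
      refine ⟨1, Subtype.ext ?_⟩
      obtain ⟨k, hk⟩ := hp
      rw [pow_one, Subgroup.coe_pow, Subgroup.coe_one, Subgroup.coe_mk, hk, ← two_mul, pow_mul,
        pow_two, k5 g hg, one_pow]
    have h2 := c.hnp₁ E₁ le_rfl Subgroup.le_normalizer h1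
    rw [h2] at hc₁
    simp at hc₁
  · have hinvert : ∀ t ∈ E₁, t ≠ 1 → ∀ v ∈ ⁅V, E₁⁆, t * v * t⁻¹ = v⁻¹ := by
      intro t ht ht1 v hv
      have hUn : E₁ ≤ Subgroup.normalizer
          ((⁅V, E₁⁆ ⊓ Subgroup.centralizer ({t} : Set G) : Subgroup G) : Set G) := by
        refine (le_inf c.E_norm ?_).trans Subgroup.inf_normalizer_le_normalizer_inf
        intro a ha
        have : a ∈ Subgroup.centralizer ({t} : Set G) := by
          rw [Subgroup.mem_centralizer_iff]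
          intro h hh
          rw [Set.mem_singleton_iff.mp hh]
          exact hcomm t ht a ha
        exact Subgroup.le_normalizer this
      rcases c.hirr₁ _ inf_le_left hUn with h1 | h1
      · have htv : t * v * t⁻¹ ∈ ⁅V, E₁⁆ :=
          (Subgroup.mem_normalizer_iff.mp (c.E_norm ht) v).mp hv
        have hw : v * (t * v * t⁻¹) ∈ ⁅V, E₁⁆ ⊓ Subgroup.centralizer ({t} : Set G) := by
          refine Subgroup.mem_inf.mpr ⟨Subgroup.mul_mem _ hv htv, ?_⟩
          rw [Subgroup.mem_centralizer_iff]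
          intro h hh
          rw [Set.mem_singleton_iff.mp hh]
          have hvv : v * (t * v * t⁻¹) = (t * v * t⁻¹) * v :=
            c.hVab _ (c.W_le hv) _ (c.W_le htv)
          have htt : t⁻¹ = t := inv_eq_of_mul_eq_one_left (k5 t ht)
          calc t * (v * (t * v * t⁻¹)) = t * v * t * v * t⁻¹ := by group
            _ = t * v * t⁻¹ * v * t := by rw [htt]
            _ = (t * v * t⁻¹) * v * t := by group
            _ = (v * (t * v * t⁻¹)) * t := by rw [hvv]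
        rw [h1, Subgroup.mem_bot] at hw
        exact eq_inv_of_mul_eq_one_right hw
      · exfalso
        have h3 : Subgroup.zpowers t ≤ E₁ := by rw [Subgroup.zpowers_le]; exact ht
        have h2 : Subgroup.zpowers t ≤
            Subgroup.centralizer ((⁅V, E₁⁆ : Subgroup G) : Set G) := by
          rw [Subgroup.zpowers_le, Subgroup.mem_centralizer_iff]
          intro w hw
          have hwU : w ∈ ⁅V, E₁⁆ ⊓ Subgroup.centralizer ({t} : Set G) := by rw [h1]; exact hw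
          exact (Subgroup.mem_centralizer_iff.mp hwU.2 t rfl).symm
        have h4 : E₁ ≤ Subgroup.normalizer ((Subgroup.zpowers t : Subgroup G) : Set G) := by
          intro a ha
          have : a ∈ Subgroup.centralizer ((Subgroup.zpowers t : Subgroup G) : Set G) := by
            rw [Subgroup.mem_centralizer_iff]
            intro h hh
            exact hcomm h (h3 hh) a ha
          exact Subgroup.centralizer_le_normalizer _ this
        have h5 := c.eq_bot_of_cent h3 h4 h2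
        rw [Subgroup.zpowers_eq_bot] at h5
        exact ht1 h5
    have hfin : Finite E₁ := Nat.finite_of_card_ne_zero (by omega)
    obtain ⟨t, t', htt', ht1, ht'1⟩ : ∃ t t' : E₁, t ≠ t' ∧ t ≠ 1 ∧ t' ≠ 1 := by
      haveI := Fintype.ofFinite E₁
      rw [Nat.card_eq_fintype_card, Fintype.two_lt_card_iff] at hc₁
      obtain ⟨a, b, d, hab, had, hbd⟩ := hc₁
      by_cases ha : a = 1
      · exact ⟨b, d, hbd, fun h => hab (ha.trans h.symm), fun h => had (ha.trans h.symm)⟩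
      · by_cases hb : b = 1
        · exact ⟨a, d, had, ha, fun h => hbd (hb.trans h.symm)⟩
        · exact ⟨a, b, hab, ha, hb⟩
    apply c.W_ne_bot
    rw [eq_bot_iff]
    intro v hv
    rw [Subgroup.mem_bot]
    have e1 := hinvert t t.2 (fun h => ht1 (Subtype.ext h)) v hv
    have e2 := hinvert t' t'.2 (fun h => ht'1 (Subtype.ext h)) v⁻¹ (Subgroup.inv_mem _ hv)
    have htt1 : (t : G) * t' ≠ 1 := by
      intro h
      apply htt'
      apply Subtype.ext
      have h2 := k5 t t.2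
      exact (mul_left_cancel (h.trans h2.symm)).symm
    have e3 := hinvert (t * t') (E₁.mul_mem t.2 t'.2) htt1 v⁻¹ (Subgroup.inv_mem _ hv)
    have e4 : (t : G) * t' * v⁻¹ * ((t : G) * t')⁻¹ = v⁻¹ := by
      calc (t : G) * t' * v⁻¹ * ((t : G) * t')⁻¹ = t * (t' * v⁻¹ * (t' : G)⁻¹) * (t : G)⁻¹ := by
            group
        _ = t * v * (t : G)⁻¹ := by rw [e2, inv_inv]
        _ = v⁻¹ := e1
    have e5 : v⁻¹ = v := by
      have := e4.symm.trans e3
      rwa [inv_inv] at this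
    have e6 : v * v = 1 := by
      nth_rewrite 1 [← e5]; exact inv_mul_cancel v
    obtain ⟨k, hk⟩ := hp
    have e7 := c.hVexp v (c.W_le hv)
    rw [hk, pow_succ, pow_mul, pow_two, e6, one_pow, one_mul] at e7
    exact e7

end SIrrCtx

theorem le_normalizer_sup' {A H K : Subgroup G} (hH : A ≤ Subgroup.normalizer (H : Set G))
    (hK : A ≤ Subgroup.normalizer (K : Set G)) :
    A ≤ Subgroup.normalizer ((H ⊔ K : Subgroup G) : Set G) := by
  intro a ha
  apply mem_normalizer_of_cj_eq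
  unfold cj
  rw [Subgroup.map_sup]
  have h1 := cj_eq_of_mem_normalizer (hH ha)
  have h2 := cj_eq_of_mem_normalizer (hK ha)
  unfold cj at h1 h2
  rw [h1, h2]

/-- KS 9.3-type theorem: two subnormal subgroups acting irreducibly on their commutator modules
with incomparable modules commute, meet trivially, and their modules are independent. -/
theorem subn_irr_aux [Finite G] (p : ℕ) (V : Subgroup G)
    (hVab : ∀ y ∈ V, ∀ z ∈ V, y * z = z * y) (hVexp : ∀ y ∈ V, y ^ p = 1) :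
    ∀ n : ℕ, ∀ E E₁ E₂ : Subgroup G, Nat.card E ≤ n →
      E ≤ Subgroup.normalizer (V : Set G) → E ⊓ Subgroup.centralizer (V : Set G) = ⊥ →
      SubnIn E E₁ → SubnIn E E₂ → NoNP p E₁ → NoNP p E₂ → IrrOn V E₁ → IrrOn V E₂ →
      ¬ ⁅V, E₁⁆ ≤ ⁅V, E₂⁆ → ¬ ⁅V, E₂⁆ ≤ ⁅V, E₁⁆ → 2 < Nat.card E₁ → 2 < Nat.card E₂ →
      ⁅E₁, E₂⁆ = ⊥ ∧ E₁ ⊓ E₂ = ⊥ ∧ ⁅V, E₁⁆ ⊓ ⁅V, E₂⁆ = ⊥ ∧
        ⁅V, E₁ ⊔ E₂⁆ = ⁅V, E₁⁆ ⊔ ⁅V, E₂⁆ := by
  intro n
  induction n with
  | zero =>
    intro E E₁ E₂ hn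
    exact absurd hn (by have := Nat.card_pos (α := E); omega)
  | succ n ih =>
    intro E E₁ E₂ hn hEV hf hs₁ hs₂ hnp₁ hnp₂ hirr₁ hirr₂ h12 h21 hc₁ hc₂
    have hI : ∀ F : Subgroup G, SubnIn E F → NoNP p F → IrrOn V F → 2 < Nat.card F → F ≠ E →
        ∀ g ∈ E, g ∉ Subgroup.normalizer ((⁅V, F⁆ : Subgroup G) : Set G) →
        ⁅F, cj g F⁆ = ⊥ ∧ ⁅V, F⁆ ⊓ cj g ⁅V, F⁆ = ⊥ := by
      intro F hs hnp hirr hc hne g hg hgn
      obtain ⟨N, hFN, hNE, hEN, hNne⟩ := hs.exists_normal_ne hne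
      have hcard : Nat.card N ≤ n := by
        by_contra hcon
        apply hNne
        apply Subgroup.eq_of_le_of_card_ge hNE
        omega
      have hgV := hEV hg
      have hW : cj g ⁅V, F⁆ = ⁅V, cj g F⁆ := by
        rw [cj_commutator, cj_eq_of_mem_normalizer hgV]
      have hcjN : cj g F ≤ N := by
        have := cj_mono g hFN
        rwa [cj_eq_of_mem_normalizer (hEN hg)] at this
      have hsE : SubnIn E (cj g F) := by
        have := hs.map (MulAut.conj g).toMonoidHom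
        change SubnIn (cj g E) (cj g F) at this
        rwa [cj_eq_of_mem_normalizer (Subgroup.le_normalizer hg)] at this
      have h1 : ¬ ⁅V, F⁆ ≤ ⁅V, cj g F⁆ := by
        intro h
        apply hgn
        apply mem_normalizer_of_cj_eq
        rw [hW]
        symm
        apply Subgroup.eq_of_le_of_card_ge h
        rw [← hW, card_cj]
      have h2 : ¬ ⁅V, cj g F⁆ ≤ ⁅V, F⁆ := by
        intro h
        apply hgn
        apply mem_normalizer_of_cj_eq
        rw [hW]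
        apply Subgroup.eq_of_le_of_card_ge h
        rw [← hW, card_cj]
      have := ih N F (cj g F) hcard (hNE.trans hEV)
        (by rw [eq_bot_iff, ← hf]; exact inf_le_inf_right _ hNE)
        (hs.restrict N hFN hNE) (hsE.restrict N hcjN hNE) hnp (hnp.cj g) hirr (hirr.cj hgV)
        h1 h2 hc (by rw [card_cj]; exact hc)
      exact ⟨this.1, by rw [hW]; exact this.2.2.1⟩
    have h1E := hs₁.le
    have h2E := hs₂.le
    have hne₁ : E₁ ≠ E := by
      intro h; apply h21; rw [h]; exact Subgroup.commutator_mono le_rfl h2E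
    have hne₂ : E₂ ≠ E := by
      intro h; apply h12; rw [h]; exact Subgroup.commutator_mono le_rfl h1E
    have c : SIrrCtx p V E E₁ E₂ :=
      ⟨hVab, hVexp, hEV, hf, h1E, h2E, hnp₁, hnp₂, hirr₁, hirr₂, h12, h21,
        hI E₁ hs₁ hnp₁ hirr₁ hc₁ hne₁, hI E₂ hs₂ hnp₂ hirr₂ hc₂ hne₂⟩
    have hN₁ := c.key hc₁
    have hN₂ := c.symm.key hc₂
    have hW : ⁅V, E₁⁆ ⊓ ⁅V, E₂⁆ = ⊥ := by
      rcases hirr₂ (⁅V, E₁⁆ ⊓ ⁅V, E₂⁆) inf_le_right
        ((le_inf hN₁ c.symm.E_norm).trans Subgroup.inf_normalizer_le_normalizer_inf) with h | h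
      · exact h
      · exfalso; apply h21; rw [← h]; exact inf_le_left
    have hc12 : ⁅⁅V, E₁⁆, E₂⁆ = ⊥ := by
      rw [eq_bot_iff, ← hW]
      exact le_inf (commutator_le_left_of_le_normalizer hN₁)
        (Subgroup.commutator_mono c.W_le le_rfl)
    have hc21 : ⁅⁅V, E₂⁆, E₁⁆ = ⊥ := by
      rw [eq_bot_iff, ← hW]
      exact le_inf (Subgroup.commutator_mono c.symm.W_le le_rfl)
        (commutator_le_left_of_le_normalizer hN₂)
    have hcentE : ∀ D : Subgroup G, D ≤ E → ⁅V, D⁆ = ⊥ → D = ⊥ := by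
      intro D hD h
      rw [Subgroup.commutator_eq_bot_iff_le_centralizer] at h
      rw [eq_bot_iff, ← hf]
      exact le_inf hD (Subgroup.le_centralizer_iff.mp h)
    refine ⟨?_, ?_, hW, ?_⟩
    · apply hcentE
      · rw [Subgroup.commutator_le]
        intro a ha b hb
        rw [commutatorElement_def]
        exact E.mul_mem (E.mul_mem (E.mul_mem (h1E ha) (h2E hb)) (E.inv_mem (h1E ha)))
          (E.inv_mem (h2E hb))
      · rw [Subgroup.commutator_comm]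
        apply Subgroup.commutator_commutator_eq_bot_of_rotate
        · rw [Subgroup.commutator_comm E₂ V]; exact hc21
        · exact hc12
    · apply hcentE _ (inf_le_left.trans h1E)
      rw [eq_bot_iff, ← hW]
      exact le_inf (Subgroup.commutator_mono le_rfl inf_le_left)
        (Subgroup.commutator_mono le_rfl inf_le_right)
    · apply le_antisymm
      · exact commutator_sup_le le_sup_left le_sup_right
          (le_normalizer_sup' c.E_norm hN₂) (le_normalizer_sup' hN₁ c.symm.E_norm)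
      · exact sup_le (Subgroup.commutator_mono le_rfl le_sup_left)
          (Subgroup.commutator_mono le_rfl le_sup_right)

end SubnIrr

end Cfsg.Agent.Helper62
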